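import Cfsg.Agent.Lib.ThompsonJ.Replacement
import Cfsg.Agent.Lib.CoprimeAction.Basic
import Cfsg.Agent.Lib.Balance.ElemAb

/-!
The bound `|A| |C_V(A)| ≤ |V|` for an elementary abelian `p`-group `A` acting faithfully on a
`p'`-group `Q` which acts faithfully on the elementary abelian `p`-group `V`
(`CfsgLib.ThompsonJ`).
-/

set_option autoImplicit false

open scoped commutatorElement

namespace CfsgLib.ThompsonJ

open Cfsg

variable {G : Type*} [Group G] {p : ℕ}

/-- `A` acts faithfully and coprimely on `Q`, which acts faithfully on `V`. -/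
structure FFAction (p : ℕ) (V A Q : Subgroup G) : Prop where
  elemV : IsElementaryAbelian p V
  elemA : IsElementaryAbelian p A
  le_normalizer : A ≤ Subgroup.normalizer (V : Set G)
  le_normalizer' : Q ≤ Subgroup.normalizer (V : Set G)
  le_normalizer_core : A ≤ Subgroup.normalizer (Q : Set G)
  coprime : (Nat.card Q).Coprime p
  faithful_core : Q ⊓ Subgroup.centralizer (V : Set G) = ⊥
  faithful : A ⊓ Subgroup.centralizer (Q : Set G) = ⊥

namespace FFAction

variable {V A Q : Subgroup G}

theorem mono (h : FFAction p V A Q) {B : Subgroup G} (hB : B ≤ A) : FFAction p V B Q :=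
  ⟨h.elemV, isElementaryAbelian_mono h.elemA hB, hB.trans h.le_normalizer, h.le_normalizer',
    hB.trans h.le_normalizer_core, h.coprime, h.faithful_core,
    le_bot_iff.1 (h.faithful ▸ inf_le_inf_right _ hB)⟩

variable [Finite G] [hp : Fact p.Prime]

theorem exists_hyperplane (h : FFAction p V A Q) {a : G} (ha : a ∈ A) (ha1 : a ≠ 1) :
    ∃ B : Subgroup G, B ≤ A ∧ a ∉ B ∧ p * Nat.card B = Nat.card A ∧
      p * Nat.card ↥(V ⊓ Subgroup.centralizer (A : Set G)) ≤
        Nat.card ↥(V ⊓ Subgroup.centralizer (B : Set G)) := by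
  have hA1 : A ≠ ⊥ := fun hb => ha1 (Subgroup.mem_bot.1 (hb ▸ ha))
  have hcop : ¬ p ∣ Nat.card Q := (hp.out.coprime_iff_not_dvd).1 h.coprime.symm
  obtain ⟨B, hBA, hBi, haB, hnc⟩ : ∃ B : Subgroup G, B ≤ A ∧ B.relIndex A = p ∧ a ∉ B ∧
      ¬ Q ⊓ Subgroup.centralizer (B : Set G) ≤ Subgroup.centralizer (A : Set G) := by
    by_contra hcon
    push Not at hcon
    have hle : Q ≤ Subgroup.centralizer ({a} : Set G) := by
      refine Balance.le_of_hyperplane_centralizers h.elemA hA1 h.le_normalizer_core hcop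
        fun B hBA hBi => ?_
      by_cases haB : a ∈ B
      · exact inf_le_right.trans (Subgroup.centralizer_le (Set.singleton_subset_iff.2 haB))
      · exact (hcon B hBA hBi haB).trans (Subgroup.centralizer_le (Set.singleton_subset_iff.2 ha))
    have hmem : a ∈ A ⊓ Subgroup.centralizer (Q : Set G) :=
      ⟨ha, fun q hq => Subgroup.mem_centralizer_singleton_iff.1 (hle hq)⟩
    rw [h.faithful] at hmem
    exact ha1 (Subgroup.mem_bot.1 hmem)
  have hcardB : p * Nat.card B = Nat.card A := by
    rw [← hBi, mul_comm, ← Subgroup.relIndex_bot_left,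
      Subgroup.relIndex_mul_relIndex _ _ _ bot_le hBA, Subgroup.relIndex_bot_left]
  refine ⟨B, hBA, haB, hcardB, ?_⟩
  set U := V ⊓ Subgroup.centralizer (B : Set G) with hU
  set U' := V ⊓ Subgroup.centralizer (A : Set G) with hU'
  have hle : U' ≤ U := inf_le_inf_left _ (Subgroup.centralizer_le hBA)
  have hne : U' ≠ U := by
    intro heq
    refine hnc fun q hq x hx => ?_
    have hxB : x ∈ Subgroup.centralizer (B : Set G) := fun b hb =>
      isElementaryAbelian_comm h.elemA (hBA hb) hx
    set k := ⁅q, x⁆ with hk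
    have hkQ : k ∈ Q := by
      rw [hk, commutatorElement_def, mul_assoc, mul_assoc, ← mul_assoc x]
      exact mul_mem hq.1 (conj_mem_of_mem_normalizer (h.le_normalizer_core hx) (inv_mem hq.1))
    have hkB : k ∈ Subgroup.centralizer (B : Set G) := by
      rw [hk, commutatorElement_def]
      exact mul_mem (mul_mem (mul_mem hq.2 hxB) (inv_mem hq.2)) (inv_mem hxB)
    have hkU : ∀ u ∈ U, u * k = k * u := by
      intro u hu
      have h1 : q⁻¹ * u * q ∈ U := by
        refine ⟨?_, ?_⟩
        · simpa using conj_mem_of_mem_normalizer (inv_mem (h.le_normalizer' hq.1)) hu.1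
        · exact Subgroup.mul_mem _ (Subgroup.mul_mem _ (Subgroup.inv_mem _ hq.2) hu.2) hq.2
      have h2 : u ∈ U' := heq ▸ hu
      have h3 : q⁻¹ * u * q ∈ U' := heq ▸ h1
      have e2 : x * u = u * x := h2.2 x hx
      have e3 : x * (q⁻¹ * u * q) = (q⁻¹ * u * q) * x := h3.2 x hx
      rw [hk, commutatorElement_def]
      calc u * (q * x * q⁻¹ * x⁻¹) = q * ((q⁻¹ * u * q) * x) * q⁻¹ * x⁻¹ := by group
        _ = q * x * q⁻¹ * (u * x⁻¹) := by rw [← e3]; group
        _ = q * x * q⁻¹ * x⁻¹ * u := by
            rw [(show Commute u x from e2.symm).inv_right.eq]; group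
    have hkV : Subgroup.zpowers k ≤ Subgroup.centralizer (V : Set G) := by
      refine CoprimeAction.pxq (P := B)
        (isPGroup_of_isElementaryAbelian (isElementaryAbelian_mono h.elemA hBA))
        (h.coprime.coprime_dvd_left (Subgroup.card_dvd_of_le (Subgroup.zpowers_le.2 hkQ)))
        (isPGroup_of_isElementaryAbelian h.elemV)
        (Subgroup.le_centralizer_iff.1 (Subgroup.zpowers_le.2 hkB))
        (hBA.trans h.le_normalizer) ((Subgroup.zpowers_le.2 hkQ).trans h.le_normalizer') ?_
      intro u hu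
      rintro _ ⟨n, rfl⟩
      exact ((show Commute u k from hkU u hu).zpow_right n).symm.eq
    have hk1 : k = 1 := Subgroup.mem_bot.1
      (h.faithful_core ▸ ⟨hkQ, hkV (Subgroup.mem_zpowers k)⟩)
    exact (commutatorElement_eq_one_iff_mul_comm.1 hk1).symm
  obtain ⟨m, hm⟩ := IsPGroup.iff_card.1
    ((isPGroup_of_isElementaryAbelian h.elemV).to_le (inf_le_left : U ≤ V))
  obtain ⟨n, hn⟩ := IsPGroup.iff_card.1
    ((isPGroup_of_isElementaryAbelian h.elemV).to_le (inf_le_left : U' ≤ V))
  have hlt : n < m := by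
    by_contra hc
    exact hne (Subgroup.eq_of_le_of_card_ge hle (hm ▸ hn ▸
      Nat.pow_le_pow_right hp.out.pos (not_lt.1 hc)))
  rw [hn, hm, mul_comm, ← pow_succ]
  exact Nat.pow_le_pow_right hp.out.pos hlt

/-- The bound `|A| |C_V(A)| ≤ |V|`. -/
theorem card_mul_le (h : FFAction p V A Q) :
    Nat.card A * Nat.card ↥(V ⊓ Subgroup.centralizer (A : Set G)) ≤ Nat.card V := by
  suffices main : ∀ n, ∀ A : Subgroup G, Nat.card A = n → FFAction p V A Q →
      Nat.card A * Nat.card ↥(V ⊓ Subgroup.centralizer (A : Set G)) ≤ Nat.card V from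
    main _ A rfl h
  intro n
  induction n using Nat.strong_induction_on with
  | _ n ih =>
    intro A hn h
    obtain rfl | ⟨a, ha, ha1⟩ := A.bot_or_exists_ne_one
    · rw [Subgroup.card_bot, one_mul]
      exact Subgroup.card_le_of_le inf_le_left
    · obtain ⟨B, hBA, -, hc, hC⟩ := h.exists_hyperplane ha ha1
      have hlt : Nat.card B < n := by
        rw [← hn, ← hc]
        exact lt_mul_of_one_lt_left Nat.card_pos hp.out.one_lt
      calc Nat.card A * Nat.card ↥(V ⊓ Subgroup.centralizer (A : Set G))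
          = Nat.card B * (p * Nat.card ↥(V ⊓ Subgroup.centralizer (A : Set G))) := by
            rw [← hc]; ring
        _ ≤ Nat.card B * Nat.card ↥(V ⊓ Subgroup.centralizer (B : Set G)) :=
            Nat.mul_le_mul_left _ hC
        _ ≤ Nat.card V := ih _ hlt B rfl (h.mono hBA)

end FFAction

end CfsgLib.ThompsonJ
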