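import Cfsg.Agent.Lib.ThompsonJ.FF.Operators

/-!
The coprime operator forms of the failure of factorization, for arbitrary `K` and `X`
(`CfsgLib.ThompsonJ`).
-/

set_option autoImplicit false
set_option linter.unusedSectionVars false
set_option linter.style.haveILetI false

open scoped MatrixGroups

namespace CfsgLib.ThompsonJ

open Cfsg

universe u

variable {G : Type u} [Group G] [Finite G] {p q : ℕ} [hp : Fact p.Prime] [hq : Fact q.Prime]
  {K X : Subgroup G}

theorem eq_bot_of_prime_eq (hq : ¬ p ∣ Nat.card K) (hO : pPrimeCore p ↥K = ⊥) : K = ⊥ := by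
  have h := Cores.pPrimeCore_eq_top_iff.2 ((hp.out.coprime_iff_not_dvd).2 hq).symm
  rw [hO] at h
  rw [Subgroup.eq_bot_iff_forall]
  intro x hx
  have h1 : (⟨x, hx⟩ : K) ∈ (⊥ : Subgroup ↥K) := h ▸ Subgroup.mem_top _
  exact congrArg Subtype.val (Subgroup.mem_bot.1 h1)

theorem coprimeSetting_sup (hXK : X ≤ Subgroup.normalizer (K : Set G))
    (hX : IsElementaryAbelian q X) (hqK : ¬ q ∣ Nat.card K) (hne : q ≠ p)
    (hsep : IsPSolvable p ↥K) (hO : pPrimeCore p ↥K = ⊥) :
    CoprimeSetting p q (K.subgroupOf (K ⊔ X)) (X.subgroupOf (K ⊔ X)) where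
  normal := Subgroup.normal_subgroupOf_of_le_normalizer (sup_le Subgroup.le_normalizer hXK)
  sup_eq_top := by
    rw [← Subgroup.subgroupOf_sup le_sup_left le_sup_right, Subgroup.subgroupOf_self]
  elemX := isElementaryAbelian_subgroupOf hX
  not_dvd := by rwa [Nat.card_congr (Subgroup.subgroupOfEquivOfLe le_sup_left).toEquiv]
  ne := hne
  sep := PSolvable.isPSolvable_of_equiv (Subgroup.subgroupOfEquivOfLe le_sup_left).symm hsep
  core := by
    rw [← Cores.map_pPrimeCore_equiv (Subgroup.subgroupOfEquivOfLe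
      (le_sup_left : K ≤ K ⊔ X)).symm, hO, Subgroup.map_bot]

/-- The inclusion of `K` in `K ⊔ X`. -/
abbrev inclSup (K X : Subgroup G) : ↥K →* ↥(K ⊔ X) := Subgroup.inclusion le_sup_left

theorem range_inclSup : (inclSup K X).range = K.subgroupOf (K ⊔ X) :=
  Subgroup.inclusion_range le_sup_left

theorem exists_sylow_inclSup (h : CoprimeSetting p q (K.subgroupOf (K ⊔ X)) (X.subgroupOf (K ⊔ X)))
    (S : Sylow p ↥K) :
    ∃ T : Sylow p ↥(K ⊔ X), (T : Subgroup ↥(K ⊔ X)) = (S : Subgroup ↥K).map (inclSup K X) := by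
  have hS : IsPGroup p ((S : Subgroup ↥K).map (inclSup K X)) := S.isPGroup'.map _
  refine ⟨hS.toSylow ?_, IsPGroup.toSylow_coe ..⟩
  rw [Subgroup.index_map_of_injective (S : Subgroup ↥K)
    (f := inclSup K X) (Subgroup.inclusion_injective _), range_inclSup]
  intro hd
  exact (hp.out.dvd_mul.1 hd).elim S.not_dvd_index h.not_dvd_index

theorem map_omegaCenter_inclSup (S : Subgroup ↥K) :
    (omegaOne p (S ⊓ Subgroup.centralizer (S : Set ↥K))).map (inclSup K X) =
      omegaOne p (S.map (inclSup K X) ⊓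
        Subgroup.centralizer (S.map (inclSup K X) : Set ↥(K ⊔ X))) := by
  rw [map_omegaOne (Subgroup.inclusion_injective _),
    map_inf_centralizer (Subgroup.inclusion_injective _)]

/-- `K` is generated by `N(J(S))`, `C(Ω₁(Z(S)))` and `C_K(X)`. -/
theorem generation_of_coprime (hXK : X ≤ Subgroup.normalizer (K : Set G))
    (hX : IsElementaryAbelian q X) (hqK : ¬ q ∣ Nat.card K) (hsep : IsPSolvable p ↥K)
    (hO : pPrimeCore p ↥K = ⊥) (S : Sylow p ↥K) (M : Subgroup ↥K)
    (hN : Subgroup.normalizer (thompsonSubgroupOf p (S : Subgroup ↥K) : Set ↥K) ≤ M)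
    (hC : Subgroup.centralizer (omegaOne p ((S : Subgroup ↥K) ⊓
      Subgroup.centralizer ((S : Subgroup ↥K) : Set ↥K)) : Set ↥K) ≤ M)
    (hCX : (Subgroup.centralizer (X : Set G)).subgroupOf K ≤ M) : M = ⊤ := by
  by_cases hpq : q = p
  · subst hpq
    have hK := eq_bot_of_prime_eq hqK hO
    refine eq_top_iff.2 fun x _ => ?_
    have hx : x = 1 := Subtype.ext (Subgroup.mem_bot.1 (hK ▸ x.2 : (x : G) ∈ (⊥ : Subgroup G)))
    rw [hx]
    exact M.one_mem
  set Γ := K ⊔ X
  have h := coprimeSetting_sup hXK hX hqK hpq hsep hO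
  haveI : (omegaSpan p ↥Γ).Normal := iSup_omegaCenter_normal
  set ι := inclSup K X with hι
  have hinj : Function.Injective ι := Subgroup.inclusion_injective _
  obtain ⟨T, hT⟩ := exists_sylow_inclSup h S
  have hmain := h.le_of_generators T (M.map ι) ?_ ?_ ?_
  · refine eq_top_iff.2 fun x _ => ?_
    obtain ⟨m, hm, he⟩ := hmain (range_inclSup.le ⟨x, rfl⟩ : ι x ∈ K.subgroupOf Γ)
    exact hinj he ▸ hm
  · rintro y ⟨hyK, hy⟩
    obtain ⟨x, rfl⟩ := range_inclSup.ge hyK
    refine Subgroup.mem_map_of_mem ι (hN (Subgroup.mem_normalizer_iff.2 fun z => ?_))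
    rw [hT, ← map_thompsonSubgroupOf hinj] at hy
    have := Subgroup.mem_normalizer_iff.1 hy (ι z)
    rwa [← map_inv, ← map_mul, ← map_mul, Subgroup.mem_map_iff_mem hinj,
      Subgroup.mem_map_iff_mem hinj] at this
  · rintro y ⟨hyK, hy⟩
    obtain ⟨x, rfl⟩ := range_inclSup.ge hyK
    refine Subgroup.mem_map_of_mem ι (hC fun z hz => hinj ?_)
    rw [map_mul, map_mul]
    rw [hT, ← map_omegaCenter_inclSup] at hy
    exact hy _ (Subgroup.mem_map_of_mem ι hz)
  · rintro y ⟨hyK, hy⟩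
    obtain ⟨x, rfl⟩ := range_inclSup.ge hyK
    refine Subgroup.mem_map_of_mem ι (hCX fun z hz => ?_)
    exact congrArg Subtype.val (hy ⟨z, Subgroup.mem_sup_right hz⟩ hz)

/-- If factorization fails in `K`, the fixed points of `X` contain `SL(2, p)` on a plane. -/
theorem exists_sl2_of_coprime (hXK : X ≤ Subgroup.normalizer (K : Set G))
    (hX : IsElementaryAbelian q X) (hqK : ¬ q ∣ Nat.card K) (hsep : IsPSolvable p ↥K)
    (hO : pPrimeCore p ↥K = ⊥) (hnf : ¬ IsThompsonFactorizable p ↥K) :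
    (p = 2 ∨ p = 3) ∧ ∃ W D : Subgroup G, W ≤ K ⊓ Subgroup.centralizer (X : Set G) ∧
      D ≤ K ⊓ Subgroup.centralizer (X : Set G) ∧ IsElementaryAbelian p W ∧ Nat.card W = p ^ 2 ∧
      D ≤ Subgroup.normalizer (W : Set G) ∧
      ∃ _hn : ((Subgroup.centralizer (W : Set G)).subgroupOf D).Normal,
        Nonempty ((↥D ⧸ (Subgroup.centralizer (W : Set G)).subgroupOf D) ≃* SL(2, ZMod p)) := by
  have hne : q ≠ p := by
    intro hpq
    subst hpq
    have hK := eq_bot_of_prime_eq hqK hO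
    refine hnf fun S g => ⟨1, one_mem _, 1, one_mem _, 1, one_mem _, ?_⟩
    rw [one_mul, one_mul]
    exact Subtype.ext (Subgroup.mem_bot.1 (hK ▸ g.2 : (g : G) ∈ (⊥ : Subgroup G)))
  set Γ := K ⊔ X with hΓ
  have h := coprimeSetting_sup hXK hX hqK hne hsep hO
  haveI : (omegaSpan p ↥Γ).Normal := iSup_omegaCenter_normal
  set ι := inclSup K X with hι
  have hinj : Function.Injective ι := Subgroup.inclusion_injective _
  have hnf' : ¬ thompsonSubgroup p ↥Γ ≤ Subgroup.centralizer (omegaSpan p ↥Γ : Set ↥Γ) := by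
    intro hle
    refine hnf fun S g => ⟨1, one_mem _, ?_⟩
    have hJ : (thompsonSubgroup p ↥K).map ι ≤ thompsonSubgroup p ↥Γ := by
      rw [← thompsonSubgroupOf_top, ← thompsonSubgroupOf_top (G := ↥Γ),
        map_thompsonSubgroupOf hinj, ← MonoidHom.range_eq_map, range_inclSup,
        thompsonSubgroupOf_eq_of_le le_top
          ((thompsonSubgroupOf_top p ↥Γ).le.trans h.thompson_le)]
    have hspan : (omegaSpan p ↥K).map ι ≤ omegaSpan p ↥Γ := by
      rw [omegaSpan, Subgroup.map_iSup]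
      refine iSup_le fun S => ?_
      obtain ⟨T, hT⟩ := exists_sylow_inclSup h S
      rw [map_omegaCenter_inclSup, ← hT]
      exact le_iSup (fun T : Sylow p ↥Γ => omegaOne p
        ((T : Subgroup ↥Γ) ⊓ Subgroup.centralizer ((T : Subgroup ↥Γ) : Set ↥Γ))) T
    have hle' : thompsonSubgroup p ↥K ≤ Subgroup.centralizer (omegaSpan p ↥K : Set ↥K) := by
      intro j hj z hz
      refine hinj ?_
      rw [map_mul, map_mul]
      exact hle (hJ (Subgroup.mem_map_of_mem ι hj)) _ (hspan (Subgroup.mem_map_of_mem ι hz))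
    obtain ⟨c, hc, n, hn, rfl⟩ := factorization_of_le_centralizer hle' S g
    exact ⟨c, hc, n, hn, by rw [one_mul]⟩
  obtain ⟨hp23, W, D, hWK, hDK, hWe, hWc, hDN, φ, hφs, hφk⟩ := h.exists_fixed_sl2 hnf'
  have hfix : ∀ A : Subgroup ↥Γ, A ≤ K.subgroupOf Γ ⊓ Subgroup.centralizer (X.subgroupOf Γ : Set ↥Γ) →
      A.map Γ.subtype ≤ K ⊓ Subgroup.centralizer (X : Set G) := by
    rintro A hA _ ⟨y, hy, rfl⟩
    exact ⟨(hA hy).1, fun z hz => congrArg Subtype.val
      ((hA hy).2 ⟨z, Subgroup.mem_sup_right hz⟩ hz)⟩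
  refine ⟨hp23, W.map Γ.subtype, D.map Γ.subtype, hfix W hWK, hfix D hDK,
    isElementaryAbelian_map hWe _,
    (Subgroup.card_map_of_injective Γ.subtype_injective).trans hWc, ?_, ?_⟩
  · rintro _ ⟨d, hd, rfl⟩
    refine CoprimeAction.mem_normalizer_of_conj_mem ?_
    rintro _ ⟨w, hw, rfl⟩
    exact ⟨d * w * d⁻¹, conj_mem_of_mem_normalizer (hDN hd) hw, by simp⟩
  · set e := Subgroup.equivMapOfInjective D Γ.subtype Γ.subtype_injective with he
    set ψ := φ.comp e.symm.toMonoidHom with hψ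
    have hk : ψ.ker = (Subgroup.centralizer ((W.map Γ.subtype : Subgroup G) : Set G)).subgroupOf
        (D.map Γ.subtype) := by
      ext y
      obtain ⟨d, rfl⟩ := e.surjective y
      rw [MonoidHom.mem_ker, hψ, MonoidHom.comp_apply, MulEquiv.coe_toMonoidHom,
        MulEquiv.symm_apply_apply, ← MonoidHom.mem_ker, hφk, Subgroup.mem_subgroupOf,
        Subgroup.mem_subgroupOf]
      constructor
      · rintro hd _ ⟨w, hw, rfl⟩
        exact congrArg Subtype.val (hd w hw)
      · intro hd w hw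
        exact Subtype.ext (hd _ (Subgroup.mem_map_of_mem Γ.subtype hw))
    haveI hnorm : ((Subgroup.centralizer ((W.map Γ.subtype : Subgroup G) : Set G)).subgroupOf
        (D.map Γ.subtype)).Normal := hk ▸ MonoidHom.normal_ker ψ
    exact ⟨hnorm, ⟨(QuotientGroup.quotientMulEquivOfEq hk.symm).trans
      (QuotientGroup.quotientKerEquivOfSurjective ψ (hφs.comp e.symm.surjective))⟩⟩

end CfsgLib.ThompsonJ
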