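import Cfsg.Agent.Lib.ThompsonJ.FF.Structure

/-!
The decomposition of `H` and of `V` by the root factors (`CfsgLib.ThompsonJ`).
-/

set_option autoImplicit false
set_option linter.unusedSectionVars false
set_option linter.style.haveILetI false

open scoped commutatorElement

namespace CfsgLib.ThompsonJ

open Cfsg

variable {G : Type*} [Group G] [Finite G] {p : ℕ} [hp : Fact p.Prime] {V H : Subgroup G} {a : G}

/-- `E` is the factor of a root. -/
def IsRootFactor (p : ℕ) (V H E : Subgroup G) : Prop :=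
  ∃ a : G, IsRoot p V H (Subgroup.zpowers a) ∧ E = rootFactor p H a

/-- The factors different from the one of `a`. -/
abbrev otherFactors (p : ℕ) (V H : Subgroup G) (a : G) : Subgroup G :=
  ⨆ E : {E : Subgroup G // IsRootFactor p V H E ∧ E ≠ rootFactor p H a}, (E : Subgroup G)

theorem le_rootFactor_of_isRoot {A : Subgroup G} (hA : IsRoot p V H A) :
    ∃ E, IsRootFactor p V H E ∧ A ≤ E := by
  obtain ⟨x, -, -, rfl⟩ := hA.exists_generator
  exact ⟨_, ⟨x, hA, rfl⟩, le_sup_right⟩

theorem iSup_factors_eq (h : FFSetting p V H) :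
    ⨆ E : {E : Subgroup G // IsRootFactor p V H E}, (E : Subgroup G) = H := by
  refine le_antisymm (iSup_le fun ⟨_, _, hx, hE⟩ => hE.le.trans (hx.factor_le h)) ?_
  conv_lhs => rw [h.eq_iSup_roots]
  refine iSup_le fun B => ?_
  obtain ⟨E, hE, hBE⟩ := le_rootFactor_of_isRoot B.2
  exact le_iSup_of_le ⟨E, hE⟩ hBE

theorem otherFactors_le (h : FFSetting p V H) (hA : IsRoot p V H (Subgroup.zpowers a)) :
    otherFactors p V H a ≤ H ⊓ Subgroup.centralizer (rootFactor p H a : Set G) ⊓
      Subgroup.centralizer (factorPlane p V H a : Set G) := by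
  refine iSup_le fun ⟨_, ⟨x, hx, hE⟩, hne⟩ => hE.le.trans ?_
  obtain he | ⟨h1, h2, -⟩ := factor_eq_or_independent h hA hx
  · exact absurd (hE.trans he.symm) hne
  · exact le_inf (le_inf (hx.factor_le h) h1) h2

theorem le_sup_otherFactors (h : FFSetting p V H) :
    H ≤ rootFactor p H a ⊔ otherFactors p V H a := by
  conv_lhs => rw [← iSup_factors_eq h]
  refine iSup_le fun E => ?_
  by_cases hE : (E : Subgroup G) = rootFactor p H a
  · exact hE.le.trans le_sup_left
  · exact le_sup_of_le_right (le_iSup_of_le ⟨E.1, E.2, hE⟩ le_rfl)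

theorem IsRoot.factor_inf_centralizer (hA : IsRoot p V H (Subgroup.zpowers a))
    (h : FFSetting p V H) :
    rootFactor p H a ⊓ (H ⊓ Subgroup.centralizer (factorPlane p V H a : Set G)) = ⊥ :=
  le_bot_iff.1 ((hA.module_data h).2.2.2 ▸ inf_le_inf_left _ inf_le_right)

theorem centralizer_plane_eq (h : FFSetting p V H) (hA : IsRoot p V H (Subgroup.zpowers a)) :
    H ⊓ Subgroup.centralizer (factorPlane p V H a : Set G) = otherFactors p V H a := by
  refine le_antisymm ?_ ((otherFactors_le h hA).trans (inf_le_inf_right _ inf_le_left))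
  rintro x ⟨hxH, hxC⟩
  have hn : rootFactor p H a ≤ Subgroup.normalizer (otherFactors p V H a : Set G) :=
    (Subgroup.le_centralizer_iff.1 ((otherFactors_le h hA).trans (inf_le_left.trans inf_le_right))).trans
      (Subgroup.centralizer_le_normalizer _)
  have hx := le_sup_otherFactors (a := a) h hxH
  rw [← SetLike.mem_coe, Subgroup.coe_mul_of_left_le_normalizer_right _ _ hn] at hx
  obtain ⟨e, he, r, hr, rfl⟩ := hx
  have he' : e ∈ Subgroup.centralizer (factorPlane p V H a : Set G) := by
    have := Subgroup.mul_mem _ hxC (Subgroup.inv_mem _ ((otherFactors_le h hA hr).2))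
    rwa [mul_inv_cancel_right] at this
  have he1 : e = 1 := Subgroup.mem_bot.1 ((hA.module_data h).2.2.2 ▸ ⟨he, he'⟩)
  simpa [he1] using hr

theorem le_normalizer_factor (h : FFSetting p V H) (hA : IsRoot p V H (Subgroup.zpowers a)) :
    H ≤ Subgroup.normalizer (rootFactor p H a : Set G) :=
  (le_sup_otherFactors (a := a) h).trans (sup_le Subgroup.le_normalizer
    ((otherFactors_le h hA).trans (inf_le_left.trans
      (inf_le_right.trans (Subgroup.centralizer_le_normalizer _)))))

/-- The statement about one factor: a direct factor of `H` with a complemented plane. -/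
theorem factor_split (h : FFSetting p V H) (hA : IsRoot p V H (Subgroup.zpowers a)) :
    ⁅rootFactor p H a, H ⊓ Subgroup.centralizer (factorPlane p V H a : Set G)⁆ = ⊥ ∧
      rootFactor p H a ⊓ (H ⊓ Subgroup.centralizer (factorPlane p V H a : Set G)) = ⊥ ∧
      rootFactor p H a ⊔ (H ⊓ Subgroup.centralizer (factorPlane p V H a : Set G)) = H ∧
      ⁅V, H ⊓ Subgroup.centralizer (factorPlane p V H a : Set G)⁆ ≤ factorFixed p V H a := by
  refine ⟨?_, hA.factor_inf_centralizer h, le_antisymm (sup_le (hA.factor_le h) inf_le_left) ?_, ?_⟩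
  · rw [centralizer_plane_eq h hA, Subgroup.commutator_eq_bot_iff_le_centralizer]
    exact Subgroup.le_centralizer_iff.1
      ((otherFactors_le h hA).trans (inf_le_left.trans inf_le_right))
  · rw [centralizer_plane_eq h hA]
    exact le_sup_otherFactors h
  · rw [Subgroup.commutator_le]
    rintro v hv r ⟨hrH, hrW⟩
    obtain ⟨w, hw, c, hc, rfl⟩ := hA.exists_mul_of_mem h hv
    have hrn : r ∈ Subgroup.normalizer (factorFixed p V H a : Set G) :=
      mem_normalizer_fixed (h.le_normalizer hrH) (le_normalizer_factor h hA hrH)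
    have h1 : ⁅w, r⁆ = 1 := commutatorElement_eq_one_iff_mul_comm.2 (hrW w hw)
    have h2 : ⁅c, r⁆ ∈ factorFixed p V H a := commutator_mem_of_mem_normalizer hrn hc
    rw [commutatorElement_mul_left_eq_conj_mul, h1, mul_one,
      isElementaryAbelian_comm h.elem (hA.plane_le h hw) h2.1, mul_inv_cancel_right]
    exact h2

theorem iSupIndep_factors (h : FFSetting p V H) :
    iSupIndep (fun E : {E : Subgroup G // IsRootFactor p V H E} => (E : Subgroup G)) := by
  rw [iSupIndep_def]
  rintro ⟨E, x, hx, rfl⟩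
  rw [disjoint_iff, eq_bot_iff]
  refine (inf_le_inf_left _ ?_).trans (hx.module_data h).2.2.2.le
  refine iSup₂_le fun F hF => ?_
  have hle : (F : Subgroup G) ≤ otherFactors p V H x :=
    le_iSup_of_le ⟨F.1, F.2, fun he => hF (Subtype.ext he)⟩ le_rfl
  exact hle.trans ((otherFactors_le h hx).trans inf_le_right)

theorem plane_le_fixed_of_ne (h : FFSetting p V H) (hA : IsRoot p V H (Subgroup.zpowers a))
    {F : Subgroup G} (hF : IsRootFactor p V H F) (hne : F ≠ rootFactor p H a) :
    ⁅V, F⁆ ≤ factorFixed p V H a := by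
  obtain ⟨x, hx, rfl⟩ := hF
  obtain he | ⟨-, -, h3⟩ := factor_eq_or_independent h hA hx
  · exact absurd he.symm hne
  · exact h3

theorem exists_mul_mem_fixed (h : FFSetting p V H) {E : Subgroup G} (hE : IsRootFactor p V H E)
    {v : G} (hv : v ∈ V) :
    ∃ w ∈ ⁅V, E⁆, ∃ c ∈ V ⊓ Subgroup.centralizer (E : Set G), w * c = v := by
  obtain ⟨x, hx, rfl⟩ := hE
  exact hx.exists_mul_of_mem h hv

theorem exists_decomposition_finset (h : FFSetting p V H)
    (s : Finset {E : Subgroup G // IsRootFactor p V H E}) :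
    (∀ v ∈ V, ∃ u ∈ ⨆ E ∈ s, ⁅V, (E : Subgroup G)⁆, ∃ c ∈ V,
      (∀ E ∈ s, c ∈ Subgroup.centralizer ((E : Subgroup G) : Set G)) ∧ u * c = v) ∧
    ∀ u ∈ ⨆ E ∈ s, ⁅V, (E : Subgroup G)⁆,
      (∀ E ∈ s, u ∈ Subgroup.centralizer ((E : Subgroup G) : Set G)) → u = 1 := by
  classical
  induction s using Finset.induction_on with
  | empty =>
    refine ⟨fun v hv => ⟨1, one_mem _, v, hv, by simp, one_mul v⟩, fun u hu _ => ?_⟩
    simpa using hu
  | @insert E s hEs ih =>
    rw [Finset.iSup_insert]
    obtain ⟨x, hx, hE⟩ := E.2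
    have hrest : (⨆ F ∈ s, ⁅V, (F : Subgroup G)⁆) ≤
        V ⊓ Subgroup.centralizer ((E : Subgroup G) : Set G) := by
      refine iSup₂_le fun F hF => ?_
      rw [hE]
      exact plane_le_fixed_of_ne h hx F.2
        fun he => hEs (Subtype.ext (he.trans hE.symm) ▸ hF)
    have hWs : ∀ F ∈ s, ⁅V, (E : Subgroup G)⁆ ≤
        Subgroup.centralizer ((F : Subgroup G) : Set G) := by
      intro F hF
      obtain ⟨y, hy, hFy⟩ := F.2
      rw [hFy]
      exact (plane_le_fixed_of_ne h hy E.2
        fun he => hEs (Subtype.ext (he.trans hFy.symm) ▸ hF)).trans inf_le_right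
    refine ⟨fun v hv => ?_, fun u hu hfix => ?_⟩
    · obtain ⟨u, hu, c, hcV, hc, rfl⟩ := ih.1 v hv
      obtain ⟨w, hw, c', hc', rfl⟩ := exists_mul_mem_fixed h E.2 hcV
      refine ⟨u * w, mul_mem (Subgroup.mem_sup_right hu) (Subgroup.mem_sup_left hw), c', hc'.1,
        fun F hF => ?_, mul_assoc _ _ _⟩
      rcases Finset.mem_insert.1 hF with rfl | hF'
      · exact hc'.2
      · have h1 := Subgroup.mul_mem _ (Subgroup.inv_mem _ (hWs F hF' hw)) (hc F hF')
        rwa [inv_mul_cancel_left] at h1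
    · have hWV : ⁅V, (E : Subgroup G)⁆ ≤ V := by rw [hE]; exact hx.plane_le h
      rw [← SetLike.mem_coe, Subgroup.coe_mul_of_left_le_normalizer_right _ _
        (RootPair.le_normalizer_of_le h hWV (hrest.trans inf_le_left))] at hu
      obtain ⟨w, hw, u', hu', rfl⟩ := hu
      have hw1 : w = 1 := by
        have h1 : w ∈ ⁅V, (E : Subgroup G)⁆ ⊓ (V ⊓ Subgroup.centralizer ((E : Subgroup G) : Set G)) :=
          ⟨hw, hWV hw, by
            have := Subgroup.mul_mem _ (hfix E (Finset.mem_insert_self E s))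
              (Subgroup.inv_mem _ (hrest hu').2)
            rwa [mul_inv_cancel_right] at this⟩
        rw [hE, (hx.module_data h).2.1, Subgroup.mem_bot] at h1
        exact h1
      simp only [hw1, one_mul] at hfix ⊢
      exact ih.2 u' hu' fun F hF => hfix F (Finset.mem_insert_of_mem hF)

theorem iSupIndep_planes (h : FFSetting p V H) :
    iSupIndep (fun o : Option {E : Subgroup G // IsRootFactor p V H E} =>
      o.elim (V ⊓ Subgroup.centralizer (H : Set G)) (fun E => ⁅V, (E : Subgroup G)⁆)) ∧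
    (V ⊓ Subgroup.centralizer (H : Set G)) ⊔
      (⨆ E : {E : Subgroup G // IsRootFactor p V H E}, ⁅V, (E : Subgroup G)⁆) = V := by
  classical
  haveI : Fintype {E : Subgroup G // IsRootFactor p V H E} := Fintype.ofFinite _
  obtain ⟨h1, h2⟩ := exists_decomposition_finset h Finset.univ
  have hsup : (⨆ E ∈ (Finset.univ : Finset {E : Subgroup G // IsRootFactor p V H E}),
      ⁅V, (E : Subgroup G)⁆) = ⨆ E : {E : Subgroup G // IsRootFactor p V H E}, ⁅V, (E : Subgroup G)⁆ :=
    by simp
  have hcent : ∀ c, (∀ E ∈ (Finset.univ : Finset {E : Subgroup G // IsRootFactor p V H E}),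
      c ∈ Subgroup.centralizer ((E : Subgroup G) : Set G)) → c ∈ Subgroup.centralizer (H : Set G) := by
    intro c hc
    have hle : (⨆ E : {E : Subgroup G // IsRootFactor p V H E}, (E : Subgroup G)) ≤
        Subgroup.centralizer ({c} : Set G) :=
      iSup_le fun E x hx =>
        Subgroup.mem_centralizer_singleton_iff.2 (hc E (Finset.mem_univ E) x hx)
    rw [iSup_factors_eq h] at hle
    exact fun x hx => Subgroup.mem_centralizer_singleton_iff.1 (hle hx)
  refine ⟨iSupIndep_def.2 fun o => ?_, le_antisymm (sup_le inf_le_left (iSup_le fun E => ?_)) ?_⟩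
  · rw [disjoint_iff, eq_bot_iff]
    rcases o with _ | ⟨E, x, hx, rfl⟩
    · rintro c ⟨⟨-, hcH⟩, hc⟩
      rw [Subgroup.mem_bot]
      refine h2 c ?_ fun E _ =>
        Subgroup.centralizer_le (?_ : ((E : Subgroup G) : Set G) ⊆ (H : Set G)) hcH
      · rw [hsup]
        refine Set.mem_of_subset_of_mem (SetLike.coe_subset_coe.2 (iSup₂_le fun o ho => ?_)) hc
        rcases o with _ | F
        · exact absurd rfl ho
        · exact le_iSup_of_le F le_rfl
      · exact SetLike.coe_subset_coe.2 ((le_iSup_of_le E le_rfl).trans (iSup_factors_eq h).le)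
    · refine (inf_le_inf_left _ (iSup₂_le fun o ho => ?_)).trans (hx.module_data h).2.1.le
      rcases o with _ | F
      · exact inf_le_inf_left _
          (Subgroup.centralizer_le (SetLike.coe_subset_coe.2 (hx.factor_le h)))
      · exact plane_le_fixed_of_ne h hx F.2 fun he => ho (congrArg some (Subtype.ext he))
  · obtain ⟨x, hx, hE⟩ := E.2
    rw [hE]
    exact hx.plane_le h
  · intro v hv
    obtain ⟨u, hu, c, hcV, hc, rfl⟩ := h1 v hv
    exact mul_mem (Subgroup.mem_sup_right (hsup ▸ hu)) (Subgroup.mem_sup_left ⟨hcV, hcent c hc⟩)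

theorem exists_root (h : FFSetting p V H) (hH1 : H ≠ ⊥) :
    ∃ a : G, IsRoot p V H (Subgroup.zpowers a) := by
  by_contra hc
  push Not at hc
  refine hH1 (h.eq_iSup_roots.trans (iSup_eq_bot.2 fun B => absurd ?_ (hc (Classical.choose
    B.2.exists_generator))))
  rw [← (Classical.choose_spec B.2.exists_generator).2.2]
  exact B.2

/-- The index predicate of the structure theorem. -/
theorem isRootFactor_iff (h : FFSetting p V H) (E : Subgroup G) :
    (∃ A : Subgroup G, A ≤ H ∧ IsBestOffenderOn p V A ∧ ⁅V, A⁆ ≠ ⊥ ∧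
      (∀ B : Subgroup G, B ≤ A → IsBestOffenderOn p V B → ⁅V, B⁆ ≠ ⊥ → B = A) ∧
      E = ⁅coreOf p H, A⁆ ⊔ A) ↔ IsRootFactor p V H E := by
  constructor
  · rintro ⟨A, hAH, hA, hAV, hmin, rfl⟩
    have hR := h.isRoot_of_minimal hAH hA hAV hmin
    obtain ⟨x, -, -, rfl⟩ := hR.exists_generator
    exact ⟨x, hR, rfl⟩
  · rintro ⟨x, hx, rfl⟩
    exact ⟨_, hx.le, hx.offender, (hx.minimal h).1, (hx.minimal h).2, rfl⟩

end CfsgLib.ThompsonJ
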