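import Cfsg.Agent.Lib.ThompsonJ.FF.PairSL2
import Cfsg.Agent.Lib.SL2.Card

/-!
The factor `[Q, A] A` spanned by a root `A` and the core `Q` (`CfsgLib.ThompsonJ`).
-/

set_option autoImplicit false
set_option linter.unusedSectionVars false
set_option linter.style.haveILetI false

open scoped commutatorElement MatrixGroups

namespace CfsgLib.ThompsonJ

open Cfsg

theorem exists_noncommuting_sl_two_three :
    ∃ w v : SL(2, ZMod 3), w ^ 4 = 1 ∧ v ^ 4 = 1 ∧ w * v ≠ v * w :=
  ⟨⟨!![0, 1; 2, 0], by decide +kernel⟩, ⟨!![1, 1; 1, 2], by decide +kernel⟩, by decide +kernel,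
    by decide +kernel, by decide +kernel⟩

variable {G : Type*} [Group G] [Finite G] {p : ℕ} [hp : Fact p.Prime] {V H : Subgroup G}

/-- `[Q, A]` -/
abbrev rootComm (p : ℕ) (H : Subgroup G) (a : G) : Subgroup G :=
  ⁅coreOf p H, Subgroup.zpowers a⁆

/-- `[Q, A] A` -/
abbrev rootFactor (p : ℕ) (H : Subgroup G) (a : G) : Subgroup G :=
  ⁅coreOf p H, Subgroup.zpowers a⁆ ⊔ Subgroup.zpowers a

namespace IsRoot

variable {a : G}

theorem exists_pair (hA : IsRoot p V H (Subgroup.zpowers a)) (h : FFSetting p V H) :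
    ∃ q ∈ coreOf p H, RootPair p V H a (q * a * q⁻¹) := by
  by_contra hc
  push Not at hc
  refine hA.gen_ne_one (Subgroup.mem_bot.1 ((h.action hA.le hA.offender).faithful ▸
    (⟨Subgroup.mem_zpowers a, fun q hq => ?_⟩ : a ∈ Subgroup.zpowers a ⊓ _)))
  by_contra hne
  exact hc q hq (rootPair_conj h hA hq fun he => hne (eq_mul_inv_iff_mul_eq.1 he).symm)

theorem comm_le_core (hA : IsRoot p V H (Subgroup.zpowers a)) (h : FFSetting p V H) :
    rootComm p H a ≤ coreOf p H :=
  Subgroup.le_normalizer_iff_commutator_le_left.1 (hA.le.trans h.le_normalizer_core)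

theorem factor_le (hA : IsRoot p V H (Subgroup.zpowers a)) (h : FFSetting p V H) :
    rootFactor p H a ≤ H :=
  sup_le ((hA.comm_le_core h).trans h.core_le) hA.le

theorem conj_mem_pair (hA : IsRoot p V H (Subgroup.zpowers a)) (h : FFSetting p V H) {b : G}
    (P : RootPair p V H a b) {q : G} (hq : q ∈ coreOf p H) :
    q * a * q⁻¹ ∈ Subgroup.zpowers a ⊔ Subgroup.zpowers b := by
  by_cases hne : a = q * a * q⁻¹
  · rw [← hne]
    exact Subgroup.mem_sup_left (Subgroup.mem_zpowers a)
  · exact P.mem_of_root (rootPair_conj h hA hq hne).rootB (rootPair_conj h hA hq hne).mem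

theorem factor_eq (hA : IsRoot p V H (Subgroup.zpowers a)) (h : FFSetting p V H) {q : G}
    (hq : q ∈ coreOf p H) (P : RootPair p V H a (q * a * q⁻¹)) :
    rootFactor p H a = Subgroup.zpowers a ⊔ Subgroup.zpowers (q * a * q⁻¹) := by
  refine le_antisymm (sup_le (Subgroup.commutator_le.2 fun y hy x hx => ?_) le_sup_left)
    (sup_le le_sup_right (Subgroup.zpowers_le.2 ?_))
  · obtain ⟨n, rfl⟩ := hx
    have h1 := zpow_mem (hA.conj_mem_pair h P hy) n
    rw [conj_zpow] at h1
    rw [commutatorElement_def]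
    exact mul_mem h1 (inv_mem (Subgroup.mem_sup_left (zpow_mem (Subgroup.mem_zpowers a) n)))
  · have e : q * a * q⁻¹ = ⁅q, a⁆ * a := by rw [commutatorElement_def]; group
    rw [e]
    exact mul_mem (Subgroup.mem_sup_left
      (Subgroup.commutator_mem_commutator hq (Subgroup.mem_zpowers a)))
      (Subgroup.mem_sup_right (Subgroup.mem_zpowers a))

theorem core_normalizes_factor (hA : IsRoot p V H (Subgroup.zpowers a)) (h : FFSetting p V H) :
    coreOf p H ≤ Subgroup.normalizer (rootFactor p H a : Set G) := by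
  intro q hq
  refine CoprimeAction.mem_normalizer_of_conj_mem fun x hx => ?_
  have hle : rootFactor p H a ≤ (rootFactor p H a).comap (MulAut.conj q).toMonoidHom := by
    refine sup_le (fun y hy => Subgroup.mem_sup_left ?_) (Subgroup.zpowers_le.2 ?_)
    · exact conj_mem_of_mem_normalizer (Subgroup.normalizer_commutator_ge_left _ _ hq) hy
    · show q * a * q⁻¹ ∈ rootFactor p H a
      have e : q * a * q⁻¹ = ⁅q, a⁆ * a := by rw [commutatorElement_def]; group
      rw [e]
      exact mul_mem (Subgroup.mem_sup_left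
        (Subgroup.commutator_mem_commutator hq (Subgroup.mem_zpowers a)))
        (Subgroup.mem_sup_right (Subgroup.mem_zpowers a))
  exact hle hx

theorem prime_two_or_three (hA : IsRoot p V H (Subgroup.zpowers a)) (h : FFSetting p V H) :
    p = 2 ∨ p = 3 :=
  let ⟨_, _, P⟩ := hA.exists_pair h
  P.prime_two_or_three

theorem nonempty_mulEquiv (hA : IsRoot p V H (Subgroup.zpowers a)) (h : FFSetting p V H) :
    Nonempty (↥(rootFactor p H a) ≃* SL(2, ZMod p)) := by
  obtain ⟨q, hq, P⟩ := hA.exists_pair h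
  rw [hA.factor_eq h hq P]
  exact P.nonempty_mulEquiv

theorem card_factor (hA : IsRoot p V H (Subgroup.zpowers a)) (h : FFSetting p V H) :
    Nat.card ↥(rootFactor p H a) = p * (p ^ 2 - 1) := by
  obtain ⟨e⟩ := hA.nonempty_mulEquiv h
  rw [Nat.card_congr e.toEquiv, SL2.card_SL, Nat.card_zmod]

theorem card_comm (hA : IsRoot p V H (Subgroup.zpowers a)) (h : FFSetting p V H) :
    Nat.card ↥(rootComm p H a) = p ^ 2 - 1 := by
  have hd : Subgroup.zpowers a ⊓ rootComm p H a = ⊥ := le_bot_iff.1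
    (h.inf_core_eq_bot (isPGroup_of_isElementaryAbelian
      (h.elementary_of_offender hA.le hA.offender)) ▸ inf_le_inf_left _ (hA.comm_le_core h))
  have h1 := card_sup_mul_card_inf (Subgroup.zpowers a) (rootComm p H a)
    (Subgroup.normalizer_commutator_ge_right _ _)
  rw [hd, Subgroup.card_bot, mul_one, hA.card, sup_comm] at h1
  exact (Nat.eq_of_mul_eq_mul_left hp.out.pos ((hA.card_factor h).symm.trans h1)).symm

theorem comm_structure (hA : IsRoot p V H (Subgroup.zpowers a)) (h : FFSetting p V H) :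
    (p = 2 ∧ IsPGroup 3 ↥(rootComm p H a)) ∨
      (p = 3 ∧ IsPGroup 2 ↥(rootComm p H a) ∧ ¬ IsMulCommutative ↥(rootComm p H a)) := by
  rcases hA.prime_two_or_three h with rfl | rfl
  · exact Or.inl ⟨rfl, IsPGroup.of_card (n := 1) (by rw [hA.card_comm h]; norm_num)⟩
  refine Or.inr ⟨rfl, IsPGroup.of_card (n := 3) (by rw [hA.card_comm h]; norm_num), fun hab => ?_⟩
  obtain ⟨e⟩ := hA.nonempty_mulEquiv h
  set K := (rootComm 3 H a).subgroupOf (rootFactor 3 H a) with hK
  haveI : K.Normal := Subgroup.normal_subgroupOf_of_le_normalizer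
    (sup_le Subgroup.le_normalizer (Subgroup.normalizer_commutator_ge_right _ _))
  have hidx : K.index = 3 := by
    have h1 := K.card_mul_index
    rw [hK, Nat.card_congr (Subgroup.subgroupOfEquivOfLe le_sup_left).toEquiv, hA.card_comm h,
      hA.card_factor h] at h1
    norm_num at h1
    rw [hK]
    omega
  have hmem : ∀ m : SL(2, ZMod 3), m ^ 4 = 1 → (e.symm m : G) ∈ rootComm 3 H a := by
    intro m hm
    have hx : (e.symm m) ^ 4 = 1 := by rw [← map_pow, hm, map_one]
    have h3 : (e.symm m) ^ 3 ∈ K := by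
      have := K.pow_index_mem (e.symm m)
      rwa [hidx] at this
    have h1 : e.symm m ∈ K := by
      have e1 : e.symm m = (e.symm m) ^ 4 * ((e.symm m) ^ 3)⁻¹ := by group
      rw [e1, hx, one_mul]
      exact inv_mem h3
    exact h1
  obtain ⟨w, v, hw, hv, hwv⟩ := exists_noncommuting_sl_two_three
  haveI := hab
  refine hwv (e.symm.injective ?_)
  rw [map_mul, map_mul]
  refine Subtype.ext ?_
  have h1 := mul_comm' (⟨_, hmem w hw⟩ : ↥(rootComm 3 H a)) ⟨_, hmem v hv⟩
  rw [Subtype.ext_iff] at h1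
  exact h1

end IsRoot

end CfsgLib.ThompsonJ
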