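import Cfsg.Agent.Lib.ThompsonJ.FF.Factor
import Cfsg.Agent.Lib.ThompsonJ.SubnormalPair

/-!
The action of a root factor on the module: plane, complement, irreducibility
(`CfsgLib.ThompsonJ`).
-/

set_option autoImplicit false
set_option linter.unusedSectionVars false

open scoped commutatorElement

namespace CfsgLib.ThompsonJ

open Cfsg

variable {G : Type*} [Group G] [Finite G] {p : ℕ} [hp : Fact p.Prime] {V H : Subgroup G} {a : G}

/-- `[V, E]` for the factor of the root `a`. -/
abbrev factorPlane (p : ℕ) (V H : Subgroup G) (a : G) : Subgroup G :=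
  ⁅V, rootFactor p H a⁆

/-- `C_V(E)` for the factor of the root `a`. -/
abbrev factorFixed (p : ℕ) (V H : Subgroup G) (a : G) : Subgroup G :=
  V ⊓ Subgroup.centralizer (rootFactor p H a : Set G)

theorem FFSetting.eq_one_of_fix (h : FFSetting p V H) {g : G} (hg : g ∈ H) {A B : Subgroup G}
    (hAB : V ≤ A ⊔ B) (hA : ∀ x ∈ A, g * x * g⁻¹ = x) (hB : ∀ x ∈ B, g * x * g⁻¹ = x) :
    g = 1 := by
  refine Subgroup.mem_bot.1 (h.faithful ▸ ⟨hg, fun v hv => ?_⟩)
  have hle : A ⊔ B ≤ Subgroup.centralizer ({g} : Set G) := sup_le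
    (fun x hx => Subgroup.mem_centralizer_singleton_iff.2 (mul_inv_eq_iff_eq_mul.1 (hA x hx)).symm)
    (fun x hx => Subgroup.mem_centralizer_singleton_iff.2 (mul_inv_eq_iff_eq_mul.1 (hB x hx)).symm)
  exact Subgroup.mem_centralizer_singleton_iff.1 (hle (hAB hv))

theorem mem_normalizer_fixed {S : Subgroup G} {g : G}
    (hV : g ∈ Subgroup.normalizer (V : Set G)) (hS : g ∈ Subgroup.normalizer (S : Set G)) :
    g ∈ Subgroup.normalizer ((V ⊓ Subgroup.centralizer (S : Set G) : Subgroup G) : Set G) := by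
  rw [Subnormal.mem_normalizer_iff_map_conj, map_conj_fixed hV,
    Subnormal.mem_normalizer_iff_map_conj.1 hS]

namespace IsRoot

theorem module_data (hA : IsRoot p V H (Subgroup.zpowers a)) (h : FFSetting p V H) :
    Nat.card ↥(factorPlane p V H a) = p ^ 2 ∧
      factorPlane p V H a ⊓ factorFixed p V H a = ⊥ ∧
      factorPlane p V H a ⊔ factorFixed p V H a = V ∧
      rootFactor p H a ⊓ Subgroup.centralizer (factorPlane p V H a : Set G) = ⊥ := by
  obtain ⟨q, hq, P⟩ := hA.exists_pair h
  rw [factorPlane, factorFixed, hA.factor_eq h hq P]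
  exact ⟨P.card_plane, P.plane_inf_fixed, P.plane_sup_fixed, P.inf_centralizer_plane⟩

theorem plane_le (hA : IsRoot p V H (Subgroup.zpowers a)) (h : FFSetting p V H) :
    factorPlane p V H a ≤ V :=
  h.commutator_offender_le (hA.factor_le h)

theorem core_normalizes_plane (hA : IsRoot p V H (Subgroup.zpowers a)) (h : FFSetting p V H) :
    coreOf p H ≤ Subgroup.normalizer (factorPlane p V H a : Set G) :=
  (le_inf (h.core_le.trans h.le_normalizer) (hA.core_normalizes_factor h)).trans
    (inf_normalizer_le_normalizer_commutator _ _)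

theorem core_normalizes_fixed (hA : IsRoot p V H (Subgroup.zpowers a)) (h : FFSetting p V H) :
    coreOf p H ≤ Subgroup.normalizer (factorFixed p V H a : Set G) := fun _ hq =>
  mem_normalizer_fixed (h.le_normalizer (h.core_le hq)) (hA.core_normalizes_factor h hq)

theorem exists_mul_of_mem (hA : IsRoot p V H (Subgroup.zpowers a)) (h : FFSetting p V H) {v : G}
    (hv : v ∈ V) : ∃ w ∈ factorPlane p V H a, ∃ c ∈ factorFixed p V H a, w * c = v := by
  rw [← (hA.module_data h).2.2.1, ← SetLike.mem_coe, Subgroup.coe_mul_of_left_le_normalizer_right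
    _ _ (RootPair.le_normalizer_of_le h (hA.plane_le h) inf_le_left)] at hv
  exact hv

theorem comm_ne_bot (hA : IsRoot p V H (Subgroup.zpowers a)) (h : FFSetting p V H) :
    rootComm p H a ≠ ⊥ := fun hb =>
  hA.ne_bot (le_bot_iff.1 ((h.action hA.le hA.offender).faithful ▸ le_inf le_rfl
    (Subgroup.le_centralizer_iff.1 (Subgroup.commutator_eq_bot_iff_le_centralizer.1 hb))))

theorem mem_comm_of_mem_core (hA : IsRoot p V H (Subgroup.zpowers a)) (h : FFSetting p V H)
    {x : G} (hx : x ∈ rootFactor p H a) (hxQ : x ∈ coreOf p H) : x ∈ rootComm p H a := by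
  rw [rootFactor, sup_comm, ← SetLike.mem_coe, Subgroup.coe_mul_of_left_le_normalizer_right
    _ _ (Subgroup.normalizer_commutator_ge_right _ _)] at hx
  obtain ⟨y, hy, k, hk, rfl⟩ := hx
  have hy1 : y = 1 := by
    have := mul_mem hxQ (inv_mem (hA.comm_le_core h hk))
    rw [mul_inv_cancel_right] at this
    exact Subgroup.mem_bot.1 (h.inf_core_eq_bot (isPGroup_of_isElementaryAbelian
      (h.elementary_of_offender hA.le hA.offender)) ▸ ⟨hy, this⟩)
  simpa [hy1] using hk

/-- `[Q, A]` is irreducible on the plane. -/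
theorem eq_bot_or_eq_plane (hA : IsRoot p V H (Subgroup.zpowers a)) (h : FFSetting p V H)
    {U : Subgroup G} (hU : U ≤ factorPlane p V H a)
    (hK : rootComm p H a ≤ Subgroup.normalizer (U : Set G)) :
    U = ⊥ ∨ U = factorPlane p V H a := by
  by_contra hcon
  push Not at hcon
  obtain ⟨hU1, hUW⟩ := hcon
  obtain ⟨m, hm2, hm⟩ := (Nat.dvd_prime_pow hp.out).1
    ((hA.module_data h).1 ▸ Subgroup.card_dvd_of_le hU)
  have hUc : Nat.card U = p := by
    interval_cases m
    · exact absurd (Subgroup.eq_bot_of_card_eq U (by simpa using hm)) hU1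
    · simpa using hm
    · exact absurd (Subgroup.eq_of_le_of_card_ge hU (by rw [(hA.module_data h).1, hm])) hUW
  obtain ⟨q, hq, P⟩ := hA.exists_pair h
  obtain ⟨u, hu, hu1⟩ := U.bot_or_exists_ne_one.resolve_left hU1
  have huW : u ∈ RootPair.plane V a (q * a * q⁻¹) := by
    have := hU hu
    rwa [factorPlane, hA.factor_eq h hq P] at this
  obtain ⟨d, hd, hda, hdE, hud⟩ : ∃ d : G, IsRoot p V H (Subgroup.zpowers d) ∧
      d * a⁻¹ ∈ coreOf p H ∧ d ∈ rootFactor p H a ∧ u ∈ rootLine V d := by
    rcases P.mem_line_or_translate huW with hh | ⟨n, hh⟩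
    · exact ⟨a, hA, by simp, Subgroup.mem_sup_right (Subgroup.mem_zpowers a), hh⟩
    · refine ⟨_, map_conj_zpowers (a ^ n) _ ▸ P.rootB.map_conj h (zpow_mem P.mem_left n), ?_, ?_, hh⟩
      · have h1 := h.conj_mem_core (zpow_mem P.mem_left n) P.mem
        have e : a ^ n * (q * a * q⁻¹) * (a ^ n)⁻¹ * a⁻¹ =
            a ^ n * (q * a * q⁻¹ * a⁻¹) * (a ^ n)⁻¹ := by group
        rwa [e]
      · rw [hA.factor_eq h hq P]
        exact mul_mem (mul_mem (Subgroup.mem_sup_left (zpow_mem (Subgroup.mem_zpowers a) n))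
          (Subgroup.mem_sup_right (Subgroup.mem_zpowers _)))
          (inv_mem (Subgroup.mem_sup_left (zpow_mem (Subgroup.mem_zpowers a) n)))
  have hUd : U = rootLine V d := by
    obtain ⟨hLd, -⟩ := hd.line_data h
    have h1 : U ⊓ rootLine V d ≠ ⊥ := fun hb => hu1 (Subgroup.mem_bot.1 (hb ▸ ⟨hu, hud⟩))
    have h2 : U ≤ rootLine V d := by
      by_contra hn
      exact h1 (inf_eq_bot_of_prime hUc hn)
    exact Subgroup.eq_of_le_of_card_ge h2 (hLd.trans hUc.symm).le
  have hcomm : ∀ k ∈ rootComm p H a, Commute k d := by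
    intro k hk
    by_contra hne
    have R := rootPair_conj h hd (hA.comm_le_core h hk) fun he =>
      hne (eq_mul_inv_iff_mul_eq.1 he).symm
    refine R.symm.not_le ?_
    rw [rootLine, ← map_conj_zpowers, commutator_map_conj
      (h.le_normalizer (h.core_le (hA.comm_le_core h hk)))]
    change (rootLine V d).map (MulAut.conj k).toMonoidHom ≤ rootWall V d
    rw [← hUd, Subnormal.mem_normalizer_iff_map_conj.1 (hK hk), hUd]
    exact (hd.line_data h).2
  -- `d = a` modulo `[Q, A]`, hence `a = d`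
  have haH : a ∈ H := hA.le (Subgroup.mem_zpowers a)
  have hk0 : d * a⁻¹ ∈ rootComm p H a := hA.mem_comm_of_mem_core h
    (mul_mem hdE (inv_mem (Subgroup.mem_sup_right (Subgroup.mem_zpowers a)))) hda
  have hc := hcomm _ hk0
  have hda' : Commute a d := by
    have h1 : Commute (a⁻¹) d := by
      have h2 := (Commute.refl d).inv_left.mul_left hc
      rwa [inv_mul_cancel_left] at h2
    simpa using h1.inv_left
  have hpow : (d * a⁻¹) ^ p ^ 1 = 1 := by
    rw [pow_one, hda'.symm.inv_right.mul_pow, inv_pow, hA.gen_pow, hd.gen_pow, inv_one, one_mul]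
  have heq : d = a := mul_inv_eq_one.1 (eq_one_of_pow_of_coprime h.core_coprime hda hpow)
  subst heq
  have h0 : ⁅rootComm p H d, Subgroup.zpowers d⁆ = ⊥ := by
    rw [Subgroup.commutator_eq_bot_iff_le_centralizer]
    rintro k hk _ ⟨n, rfl⟩
    exact ((hcomm k hk).zpow_right n).symm.eq
  refine hA.comm_ne_bot h ?_
  rw [← h0]
  exact (CoprimeAction.commutator_commutator_eq (hA.le.trans h.le_normalizer_core)
    (by rw [hA.card]; exact h.core_coprime.symm)
    (Or.inl (CoprimeAction.isSolvable_zpowers d))).symm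

/-- `C_V(E) = C_V([Q, A])`. -/
theorem fixed_eq_comm (hA : IsRoot p V H (Subgroup.zpowers a)) (h : FFSetting p V H) :
    factorFixed p V H a = V ⊓ Subgroup.centralizer (rootComm p H a : Set G) := by
  refine le_antisymm (inf_le_inf_left _ (Subgroup.centralizer_le
    (SetLike.coe_subset_coe.2 le_sup_left))) ?_
  rintro v ⟨hv, hvK⟩
  obtain ⟨w, hw, c, hc, rfl⟩ := hA.exists_mul_of_mem h hv
  have hwK : w ∈ Subgroup.centralizer (rootComm p H a : Set G) := by
    have h1 := Subgroup.mul_mem _ hvK (Subgroup.inv_mem _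
      (Subgroup.centralizer_le (SetLike.coe_subset_coe.2
        (le_sup_left : rootComm p H a ≤ rootFactor p H a)) hc.2))
    rwa [mul_inv_cancel_right] at h1
  set U := factorPlane p V H a ⊓ Subgroup.centralizer (rootComm p H a : Set G) with hU
  rcases hA.eq_bot_or_eq_plane h (U := U) inf_le_left
      ((Subgroup.le_centralizer_iff.1 inf_le_right).trans (Subgroup.centralizer_le_normalizer _))
    with hb | hb
  · have hm : w ∈ U := ⟨hw, hwK⟩
    rw [hb, Subgroup.mem_bot] at hm
    rw [hm, one_mul]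
    exact hc
  · exfalso
    refine hA.comm_ne_bot h (le_bot_iff.1 ((hA.module_data h).2.2.2 ▸ le_inf le_sup_left ?_))
    exact Subgroup.le_centralizer_iff.1 (inf_eq_left.1 hb)

end IsRoot

end CfsgLib.ThompsonJ
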