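import Cfsg.Agent.Lib.ThompsonJ.FF.Bound
import Cfsg.Agent.Lib.ThompsonJ.Stabilizer

/-!
Best offenders in a faithful group with self-centralizing `p'`-core generated by best offenders
(`CfsgLib.ThompsonJ`).
-/

set_option autoImplicit false
set_option linter.unusedSectionVars false

open scoped commutatorElement

namespace CfsgLib.ThompsonJ

open Cfsg

variable {G : Type*} [Group G] {p : ℕ}

/-- The `p'`-core of `H`, inside `G`. -/
abbrev coreOf (p : ℕ) (H : Subgroup G) : Subgroup G := (pPrimeCore p ↥H).map H.subtype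

/-- The hypotheses of the structure theorem for failure of factorization. -/
structure FFSetting (p : ℕ) (V H : Subgroup G) : Prop where
  elem : IsElementaryAbelian p V
  le_normalizer : H ≤ Subgroup.normalizer (V : Set G)
  faithful : H ⊓ Subgroup.centralizer (V : Set G) = ⊥
  selfCent : H ⊓ Subgroup.centralizer (coreOf p H : Set G) ≤ coreOf p H
  gen : H = ⨆ A : {A : Subgroup G // A ≤ H ∧ IsBestOffenderOn p V A}, (A : Subgroup G)

/-- A best offender of order `p`. -/
structure IsRoot (p : ℕ) (V H A : Subgroup G) : Prop where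
  le : A ≤ H
  offender : IsBestOffenderOn p V A
  card : Nat.card A = p

theorem FFSetting.of_hyp {V H : Subgroup G} (hV : IsElementaryAbelian p V)
    (hHV : H ≤ Subgroup.normalizer (V : Set G)) (hf : H ⊓ Subgroup.centralizer (V : Set G) = ⊥)
    (hS1 : Subgroup.centralizer (pPrimeCore p ↥H : Set ↥H) ≤ pPrimeCore p ↥H)
    (hS3 : H = ⨆ A : {A : Subgroup G // A ≤ H ∧ IsBestOffenderOn p V A}, (A : Subgroup G)) :
    FFSetting p V H where
  elem := hV
  le_normalizer := hHV
  faithful := hf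
  gen := hS3
  selfCent := fun x hx => ⟨⟨x, hx.1⟩, hS1 (fun _ hq => Subtype.ext
    (hx.2 _ (Subgroup.mem_map_of_mem H.subtype hq))), rfl⟩

namespace FFSetting

variable {V H A : Subgroup G}

theorem core_le (_h : FFSetting p V H) : coreOf p H ≤ H := Subgroup.map_subtype_le _

theorem le_normalizer_core (_h : FFSetting p V H) :
    H ≤ Subgroup.normalizer (coreOf p H : Set G) :=
  Subgroup.le_normalizer.trans (Cores.normalizer_le_normalizer_map_subtype H _)

theorem commutator_offender_le (h : FFSetting p V H) (hA : A ≤ H) : ⁅V, A⁆ ≤ V :=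
  Subgroup.le_normalizer_iff_commutator_le_left.1 (hA.trans h.le_normalizer)

theorem elementary_of_offender (h : FFSetting p V H) (hAH : A ≤ H)
    (hA : IsBestOffenderOn p V A) : IsElementaryAbelian p A := by
  refine isElementaryAbelian_iff.2 ⟨Subgroup.commutator_eq_bot_iff_le_centralizer.1
    (le_bot_iff.1 (h.faithful ▸ le_inf ?_ hA.2.1)), fun a ha => ?_⟩
  · exact Subgroup.commutator_le.2 fun x hx y hy =>
      mul_mem (mul_mem (mul_mem (hAH hx) (hAH hy)) (inv_mem (hAH hx))) (inv_mem (hAH hy))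
  · exact Subgroup.mem_bot.1 (h.faithful ▸ ⟨hAH (pow_mem ha p), hA.2.2 a ha⟩)

variable [Finite G] [hp : Fact p.Prime]

theorem core_coprime (_h : FFSetting p V H) : (Nat.card ↥(coreOf p H)).Coprime p := by
  rw [Subgroup.card_map_of_injective H.subtype_injective]
  exact Cores.card_pPrimeCore_coprime p

theorem inf_core_eq_bot (h : FFSetting p V H) (hA : IsPGroup p A) : A ⊓ coreOf p H = ⊥ := by
  obtain ⟨n, hn⟩ := IsPGroup.iff_card.1 hA
  refine Subgroup.eq_bot_of_card_eq _ (Nat.eq_one_of_dvd_coprimes ?_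
    (Subgroup.card_dvd_of_le inf_le_left) (Subgroup.card_dvd_of_le inf_le_right))
  rw [hn]
  exact (h.core_coprime.pow_right n).symm

theorem action (h : FFSetting p V H) (hAH : A ≤ H) (hA : IsBestOffenderOn p V A) :
    FFAction p V A (coreOf p H) where
  elemV := h.elem
  elemA := h.elementary_of_offender hAH hA
  le_normalizer := hAH.trans h.le_normalizer
  le_normalizer' := h.core_le.trans h.le_normalizer
  le_normalizer_core := hAH.trans h.le_normalizer_core
  coprime := h.core_coprime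
  faithful_core := le_bot_iff.1 (h.faithful ▸ inf_le_inf_right _ h.core_le)
  faithful := le_bot_iff.1 (by
    rw [← h.inf_core_eq_bot (isPGroup_of_isElementaryAbelian (h.elementary_of_offender hAH hA))]
    exact le_inf inf_le_left ((inf_le_inf_right _ hAH).trans h.selfCent))

/-- Every best offender attains the bound. -/
theorem offender_card (h : FFSetting p V H) (hAH : A ≤ H) (hA : IsBestOffenderOn p V A) :
    Nat.card A * Nat.card ↥(V ⊓ Subgroup.centralizer (A : Set G)) = Nat.card V := by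
  refine le_antisymm (h.action hAH hA).card_mul_le ?_
  have h1 := hA.1 ⊥ bot_le
  have hV : V ⊓ Subgroup.centralizer ((⊥ : Subgroup G) : Set G) = V := inf_eq_left.2
    fun v _ => by
      rintro x hx
      rw [Subgroup.mem_bot.1 hx, one_mul, mul_one]
  rwa [hV, Subgroup.card_bot, one_mul] at h1

theorem exists_offender_hyperplane (h : FFSetting p V H) (hAH : A ≤ H)
    (hA : IsBestOffenderOn p V A) {a : G} (ha : a ∈ A) (ha1 : a ≠ 1) :
    ∃ B : Subgroup G, B ≤ A ∧ a ∉ B ∧ IsBestOffenderOn p V B ∧ p * Nat.card B = Nat.card A ∧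
      Nat.card ↥(V ⊓ Subgroup.centralizer (B : Set G)) =
        p * Nat.card ↥(V ⊓ Subgroup.centralizer (A : Set G)) := by
  obtain ⟨B, hBA, haB, hc, hC⟩ := (h.action hAH hA).exists_hyperplane ha ha1
  have heq := h.offender_card hAH hA
  have hB := ((h.action hAH hA).mono hBA).card_mul_le
  have hm : Nat.card B * Nat.card ↥(V ⊓ Subgroup.centralizer (B : Set G)) = Nat.card V := by
    refine le_antisymm hB ?_
    rw [← heq, ← hc, mul_comm p, mul_assoc]
    exact Nat.mul_le_mul_left _ hC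
  refine ⟨B, hBA, haB, ⟨fun C hC' => ?_, (Subgroup.commutator_mono hBA hBA).trans hA.2.1,
    fun x hx => hA.2.2 x (hBA hx)⟩, hc, ?_⟩
  · rw [hm, ← heq]
    exact hA.1 C (hC'.trans hBA)
  · rw [← hc, ← hm, mul_comm p, mul_assoc] at heq
    exact (Nat.eq_of_mul_eq_mul_left Nat.card_pos heq).symm

theorem commutator_ne_bot (h : FFSetting p V H) (hAH : A ≤ H) (hA1 : A ≠ ⊥) : ⁅V, A⁆ ≠ ⊥ := by
  intro hb
  refine hA1 (le_bot_iff.1 (h.faithful ▸ le_inf hAH ?_))
  exact Subgroup.le_centralizer_iff.1 (Subgroup.commutator_eq_bot_iff_le_centralizer.1 hb)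

theorem isRoot_of_minimal (h : FFSetting p V H) (hAH : A ≤ H) (hA : IsBestOffenderOn p V A)
    (hAV : ⁅V, A⁆ ≠ ⊥)
    (hmin : ∀ B : Subgroup G, B ≤ A → IsBestOffenderOn p V B → ⁅V, B⁆ ≠ ⊥ → B = A) :
    IsRoot p V H A := by
  have hA1 : A ≠ ⊥ := fun hb => hAV (by rw [hb, Subgroup.commutator_bot_right])
  obtain ⟨a, ha, ha1⟩ := A.bot_or_exists_ne_one.resolve_left hA1
  obtain ⟨B, hBA, haB, hB, hc, -⟩ := h.exists_offender_hyperplane hAH hA ha ha1
  have hB1 : B = ⊥ := by
    by_contra hne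
    exact haB ((hmin B hBA hB (h.commutator_ne_bot (hBA.trans hAH) hne)).symm ▸ ha)
  rw [hB1, Subgroup.card_bot, mul_one] at hc
  exact ⟨hAH, hA, hc.symm⟩

end FFSetting

namespace IsRoot

variable {V H A : Subgroup G} [Finite G] [hp : Fact p.Prime]

theorem ne_bot (hA : IsRoot p V H A) : A ≠ ⊥ := fun hb =>
  hp.out.ne_one (by rw [← hA.card, hb, Subgroup.card_bot])

theorem eq_of_le (hA : IsRoot p V H A) {B : Subgroup G} (hBA : B ≤ A) (hB : B ≠ ⊥) : B = A :=
  ((Nat.dvd_prime hp.out).1 (hA.card ▸ Subgroup.card_dvd_of_le hBA)).elim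
    (fun h1 => absurd (Subgroup.eq_bot_of_card_eq _ h1) hB)
    fun h1 => Subgroup.eq_of_le_of_card_ge hBA (hA.card.trans h1.symm).le

theorem minimal (hA : IsRoot p V H A) (h : FFSetting p V H) :
    ⁅V, A⁆ ≠ ⊥ ∧
      ∀ B : Subgroup G, B ≤ A → IsBestOffenderOn p V B → ⁅V, B⁆ ≠ ⊥ → B = A :=
  ⟨h.commutator_ne_bot hA.le hA.ne_bot, fun B hBA _ hB => hA.eq_of_le hBA fun hb =>
    hB (by rw [hb, Subgroup.commutator_bot_right])⟩

theorem exists_generator (hA : IsRoot p V H A) :
    ∃ a : G, a ≠ 1 ∧ a ^ p = 1 ∧ A = Subgroup.zpowers a := by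
  obtain ⟨a, ha, ha1⟩ := A.bot_or_exists_ne_one.resolve_left hA.ne_bot
  have heq := (hA.eq_of_le (Subgroup.zpowers_le.2 ha)
    (fun hb => ha1 (Subgroup.zpowers_eq_bot.1 hb))).symm
  refine ⟨a, ha1, ?_, heq⟩
  rw [← hA.card, heq, Nat.card_zpowers]
  exact pow_orderOf_eq_one a

theorem card_fixed (hA : IsRoot p V H A) (h : FFSetting p V H) :
    p * Nat.card ↥(V ⊓ Subgroup.centralizer (A : Set G)) = Nat.card V := by
  have := h.offender_card hA.le hA.offender
  rwa [hA.card] at this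

theorem relIndex_fixed (hA : IsRoot p V H A) (h : FFSetting p V H) :
    (V ⊓ Subgroup.centralizer (A : Set G)).relIndex V = p := by
  have h1 : Nat.card ↥(V ⊓ Subgroup.centralizer (A : Set G)) *
      (V ⊓ Subgroup.centralizer (A : Set G)).relIndex V = Nat.card V := by
    rw [← Subgroup.relIndex_bot_left, Subgroup.relIndex_mul_relIndex _ _ _ bot_le inf_le_left,
      Subgroup.relIndex_bot_left]
  rw [← hA.card_fixed h, mul_comm] at h1
  exact Nat.eq_of_mul_eq_mul_right Nat.card_pos h1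

/-- The commutator module of a root is the set of commutators with a generator; it has order `p`
and is centralized by the root. -/
theorem commutator_data (hA : IsRoot p V H A) (h : FFSetting p V H) {a : G} (ha : a ∈ A)
    (ha1 : a ≠ 1) :
    Nat.card ↥⁅V, A⁆ = p ∧ ⁅V, A⁆ ≤ V ⊓ Subgroup.centralizer (A : Set G) ∧
      ∀ l ∈ ⁅V, A⁆, ∃ v ∈ V, ⁅v, a⁆ = l := by
  have hAz : A = Subgroup.zpowers a :=
    (hA.eq_of_le (Subgroup.zpowers_le.2 ha) fun hb => ha1 (Subgroup.zpowers_eq_bot.1 hb)).symm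
  have haV : a ∈ Subgroup.normalizer (V : Set G) := h.le_normalizer (hA.le ha)
  have hcomm : ∀ v : V, ⁅(v : G), a⁆ ∈ V := fun v => commutator_mem_of_mem_normalizer haV v.2
  let f : V →* G := {
    toFun := fun v => ⁅(v : G), a⁆
    map_one' := by simp
    map_mul' := fun v w => by
      rw [Subgroup.coe_mul, commutatorElement_mul_left_eq_conj_mul,
        isElementaryAbelian_comm h.elem v.2 (hcomm w), mul_inv_cancel_right,
        isElementaryAbelian_comm h.elem (hcomm w) (hcomm v)] }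
  have hfa : ∀ v : V, f v = ⁅(v : G), a⁆ := fun _ => rfl
  have hker : f.ker = (V ⊓ Subgroup.centralizer (A : Set G)).subgroupOf V := by
    ext v
    rw [MonoidHom.mem_ker, hfa, Subgroup.mem_subgroupOf, commutatorElement_eq_one_iff_commute]
    refine ⟨fun hc => ⟨v.2, ?_⟩, fun hc => (hc.2 a ha).symm⟩
    intro x hx
    rw [hAz] at hx
    obtain ⟨n, rfl⟩ := hx
    exact (hc.zpow_right n).symm.eq
  have hcard : Nat.card f.range = p := by
    rw [← Subgroup.index_ker, hker]
    exact hA.relIndex_fixed h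
  have hrV : f.range ≤ V := by
    rintro _ ⟨v, rfl⟩
    exact hcomm v
  have hrn : A ≤ Subgroup.normalizer (f.range : Set G) := fun x hx => by
    refine CoprimeAction.mem_normalizer_of_conj_mem ?_
    rintro _ ⟨v, rfl⟩
    refine ⟨⟨x * v * x⁻¹, conj_mem_of_mem_normalizer (h.le_normalizer (hA.le hx)) v.2⟩, ?_⟩
    have hxa : x * a = a * x :=
      isElementaryAbelian_comm (h.elementary_of_offender hA.le hA.offender) hx ha
    rw [hfa, hfa, conjugate_commutatorElement, hxa, mul_inv_cancel_right]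
  have hall : A ≤ stabilizerModulo V f.range A hrV hrn (hA.le.trans h.le_normalizer) := by
    conv_lhs => rw [hAz]
    exact Subgroup.zpowers_le.2 ⟨ha, fun v hv => ⟨⟨v, hv⟩, rfl⟩⟩
  have heq : ⁅V, A⁆ = f.range := by
    refine le_antisymm (Subgroup.commutator_le.2 fun v hv x hx => (hall hx).2 v hv) ?_
    rintro _ ⟨v, rfl⟩
    exact Subgroup.commutator_mem_commutator v.2 ha
  refine ⟨heq ▸ hcard, le_inf (h.commutator_offender_le hA.le) ?_, fun l hl => ?_⟩
  · rw [← Subgroup.commutator_eq_bot_iff_le_centralizer]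
    by_contra hne
    have hsub : ⁅⁅V, A⁆, A⁆ ≤ ⁅V, A⁆ := Subgroup.le_normalizer_iff_commutator_le_left.1
      (Subgroup.normalizer_commutator_ge_right V A)
    have hfull : ⁅⁅V, A⁆, A⁆ = ⁅V, A⁆ := by
      rcases (Nat.dvd_prime hp.out).1 (heq.symm ▸ hcard ▸ Subgroup.card_dvd_of_le (heq ▸ hsub)) with
        h1 | h1
      · exact absurd (Subgroup.eq_bot_of_card_eq _ h1) hne
      · exact Subgroup.eq_of_le_of_card_ge hsub (by rw [heq, hcard]; exact (heq ▸ h1).ge)
    exact h.commutator_ne_bot hA.le hA.ne_bot (eq_bot_of_le_commutator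
      ((isPGroup_of_isElementaryAbelian h.elem).to_le (h.commutator_offender_le hA.le))
      (Subgroup.normalizer_commutator_ge_right V A)
      (fun x hx => ⟨1, by
        rw [pow_one]
        exact Subgroup.centralizer_le (h.commutator_offender_le hA.le) (hA.offender.2.2 x hx)⟩)
      hfull.ge)
  · obtain ⟨v, rfl⟩ := (heq ▸ hl : l ∈ f.range)
    exact ⟨v, v.2, rfl⟩

end IsRoot

namespace FFSetting

variable {V H : Subgroup G} [Finite G] [hp : Fact p.Prime]

theorem iSup_roots_eq (h : FFSetting p V H) {A : Subgroup G} (hAH : A ≤ H)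
    (hA : IsBestOffenderOn p V A) :
    ⨆ B : {B : Subgroup G // IsRoot p V H B ∧ B ≤ A}, (B : Subgroup G) = A := by
  suffices main : ∀ n, ∀ A : Subgroup G, Nat.card A = n → A ≤ H → IsBestOffenderOn p V A →
      A ≤ ⨆ B : {B : Subgroup G // IsRoot p V H B ∧ B ≤ A}, (B : Subgroup G) from
    le_antisymm (iSup_le fun B => B.2.2) (main _ A rfl hAH hA)
  intro n
  induction n using Nat.strong_induction_on with
  | _ n ih =>
    intro A hn hAH hA
    obtain rfl | ⟨a, ha, ha1⟩ := A.bot_or_exists_ne_one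
    · exact bot_le
    obtain ⟨B₁, hB₁A, haB₁, hB₁, hc₁, -⟩ := h.exists_offender_hyperplane hAH hA ha ha1
    obtain rfl | ⟨b, hb, hb1⟩ := B₁.bot_or_exists_ne_one
    · rw [Subgroup.card_bot, mul_one] at hc₁
      exact le_iSup_of_le ⟨A, ⟨hAH, hA, hc₁.symm⟩, le_rfl⟩ le_rfl
    obtain ⟨B₂, hB₂A, hbB₂, hB₂, hc₂, -⟩ :=
      h.exists_offender_hyperplane hAH hA (hB₁A hb) hb1
    have hlt₁ : Nat.card B₁ < n := by
      rw [← hn, ← hc₁]; exact lt_mul_of_one_lt_left Nat.card_pos hp.out.one_lt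
    have hlt₂ : Nat.card B₂ < n := by
      rw [← hn, ← hc₂]; exact lt_mul_of_one_lt_left Nat.card_pos hp.out.one_lt
    have hsup : B₁ ⊔ B₂ = A := by
      have hle : B₁ ⊔ B₂ ≤ A := sup_le hB₁A hB₂A
      obtain ⟨k, hk⟩ := Subgroup.card_dvd_of_le (le_sup_left : B₁ ≤ B₁ ⊔ B₂)
      have hk' : k ∣ p := Nat.dvd_of_mul_dvd_mul_left Nat.card_pos
        (hk ▸ (mul_comm p _ ▸ hc₁ : Nat.card B₁ * p = Nat.card A) ▸ Subgroup.card_dvd_of_le hle)
      rcases (Nat.dvd_prime hp.out).1 hk' with rfl | rfl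
      · exfalso
        have he : B₁ = B₁ ⊔ B₂ :=
          Subgroup.eq_of_le_of_card_ge le_sup_left (hk.trans (mul_one _)).le
        refine hbB₂ ?_
        rw [Subgroup.eq_of_le_of_card_ge (le_sup_right.trans he.ge : B₂ ≤ B₁)
          (Nat.le_of_mul_le_mul_left (hc₁.trans hc₂.symm).le hp.out.pos)]
        exact hb
      · exact Subgroup.eq_of_le_of_card_ge hle (by rw [← hc₁, hk, mul_comm])
    conv_lhs => rw [← hsup]
    refine sup_le ((ih _ hlt₁ B₁ rfl (hB₁A.trans hAH) hB₁).trans (iSup_le fun C => ?_))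
      ((ih _ hlt₂ B₂ rfl (hB₂A.trans hAH) hB₂).trans (iSup_le fun C => ?_))
    · exact le_iSup_of_le ⟨C.1, C.2.1, C.2.2.trans hB₁A⟩ le_rfl
    · exact le_iSup_of_le ⟨C.1, C.2.1, C.2.2.trans hB₂A⟩ le_rfl

theorem eq_iSup_roots (h : FFSetting p V H) :
    H = ⨆ B : {B : Subgroup G // IsRoot p V H B}, (B : Subgroup G) := by
  refine le_antisymm ?_ (iSup_le fun B => B.2.le)
  conv_lhs => rw [h.gen]
  refine iSup_le fun A => ?_
  conv_lhs => rw [← h.iSup_roots_eq A.2.1 A.2.2]
  exact iSup_le fun B => le_iSup_of_le ⟨B.1, B.2.1⟩ le_rfl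

/-- A best offender is the direct product of some of its roots. -/
theorem exists_root_decomposition (h : FFSetting p V H) {A : Subgroup G} (hAH : A ≤ H)
    (hA : IsBestOffenderOn p V A) :
    ∃ (k : ℕ) (B : Fin k → Subgroup G),
      (∀ i, B i ≤ A ∧ IsRoot p V H (B i)) ∧ iSupIndep B ∧ ⨆ i, B i = A := by
  classical
  have hex : ∃ k : ℕ, ∃ B : Fin k → Subgroup G,
      (∀ i, B i ≤ A ∧ IsRoot p V H (B i)) ∧ ⨆ i, B i = A := by
    obtain ⟨k, ⟨e⟩⟩ := Finite.exists_equiv_fin {B : Subgroup G // IsRoot p V H B ∧ B ≤ A}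
    refine ⟨k, fun i => ((e.symm i : {B : Subgroup G // IsRoot p V H B ∧ B ≤ A}) : Subgroup G),
      fun i => ⟨(e.symm i).2.2, (e.symm i).2.1⟩, ?_⟩
    exact (e.symm.iSup_comp
      (g := fun B : {B : Subgroup G // IsRoot p V H B ∧ B ≤ A} => (B : Subgroup G))).trans
      (h.iSup_roots_eq hAH hA)
  obtain ⟨B, hB, hsup⟩ := Nat.find_spec hex
  refine ⟨_, B, hB, ?_, hsup⟩
  rw [iSupIndep_def]
  intro i
  rw [disjoint_iff]
  by_contra hne
  have hle : B i ≤ ⨆ (j) (_ : j ≠ i), B j :=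
    inf_eq_left.1 ((hB i).2.eq_of_le inf_le_left hne)
  have hpos := Fin.pos i
  obtain ⟨k, hk⟩ : ∃ k, Nat.find hex = k + 1 :=
    ⟨Nat.find hex - 1, (Nat.succ_pred_eq_of_pos hpos).symm⟩
  let B' : Fin (k + 1) → Subgroup G := fun j => B (Fin.cast hk.symm j)
  set i' := Fin.cast hk i with hi'
  refine Nat.find_min hex (show k < Nat.find hex by omega)
    ⟨fun j => B' (i'.succAbove j), fun j => hB _, le_antisymm (iSup_le fun j => (hB _).1) ?_⟩
  have hrest : ∀ j, j ≠ i → B j ≤ ⨆ j', B' (i'.succAbove j') := by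
    intro j hj
    obtain ⟨j', hj'⟩ := Fin.exists_succAbove_eq (x := Fin.cast hk j) (y := i')
      (fun he => hj (Fin.cast_injective _ he))
    refine le_iSup_of_le j' (le_of_eq ?_)
    simp only [B', hj', Fin.cast_cast, Fin.cast_eq_self]
  conv_lhs => rw [← hsup]
  refine iSup_le fun j => ?_
  by_cases hj : j = i
  · exact hj ▸ hle.trans (iSup₂_le hrest)
  · exact hrest j hj

end FFSetting

end CfsgLib.ThompsonJ
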