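import Mathlib.GroupTheory.SemidirectProduct
import Cfsg.Agent.Lib.ThompsonJ.FF.Offenders
import Cfsg.Agent.Lib.MetacyclicP.ExpBound

/-!
A group acting on a normal elementary abelian subgroup `V`, seen in `V ⋊ G/C(V)`, where the
action is faithful (`CfsgLib.ThompsonJ`).
-/

set_option autoImplicit false
set_option linter.unusedSectionVars false

namespace CfsgLib.ThompsonJ

open Cfsg

universe u

variable {G : Type u} [Group G] {p : ℕ} (V : Subgroup G) [V.Normal]

/-- The automorphisms of `V` induced by `G`. -/
abbrev moduleAut : Subgroup (MulAut V) := (MulAut.conjNormal : G →* MulAut V).range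

/-- `V ⋊ G/C(V)`. -/
abbrev ModuleModel : Type u := V ⋊[(moduleAut V).subtype] (moduleAut V)

/-- The map of `G` to the model. -/
def modelMap : G →* ModuleModel V :=
  SemidirectProduct.inr.comp (MulAut.conjNormal : G →* MulAut V).rangeRestrict

/-- `V` inside the model. -/
abbrev modelModule : Subgroup (ModuleModel V) := (SemidirectProduct.inl : V →* ModuleModel V).range

theorem modelMap_conj (g : G) (v : V) :
    modelMap V g * SemidirectProduct.inl v * (modelMap V g)⁻¹ =
      SemidirectProduct.inl (MulAut.conjNormal g v) := by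
  rw [modelMap, MonoidHom.comp_apply, ← map_inv, ← SemidirectProduct.inl_aut]
  rfl

theorem modelMap_commute_iff (g : G) (v : V) :
    modelMap V g * SemidirectProduct.inl v = SemidirectProduct.inl v * modelMap V g ↔
      g * (v : G) = (v : G) * g := by
  rw [← mul_inv_eq_iff_eq_mul, modelMap_conj, SemidirectProduct.inl_inj, Subtype.ext_iff,
    MulAut.conjNormal_apply, mul_inv_eq_iff_eq_mul]

theorem modelMap_mem_centralizer_iff (g : G) :
    modelMap V g ∈ Subgroup.centralizer (modelModule V : Set (ModuleModel V)) ↔
      g ∈ Subgroup.centralizer (V : Set G) := by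
  constructor
  · intro h v hv
    exact ((modelMap_commute_iff V g ⟨v, hv⟩).1 (h _ ⟨⟨v, hv⟩, rfl⟩).symm).symm
  · rintro h _ ⟨v, rfl⟩
    exact ((modelMap_commute_iff V g v).2 (h v v.2).symm).symm

theorem ker_modelMap : (modelMap V).ker = Subgroup.centralizer (V : Set G) := by
  ext g
  rw [MonoidHom.mem_ker, modelMap, MonoidHom.comp_apply, map_eq_one_iff _
    SemidirectProduct.inr_injective, ← MonoidHom.mem_ker, MonoidHom.ker_rangeRestrict,
    MonoidHom.mem_ker]
  constructor
  · intro h v hv
    have h1 := congrArg (fun f : MulAut V => ((f ⟨v, hv⟩ : V) : G)) h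
    simp only [MulAut.conjNormal_apply, MulAut.one_apply] at h1
    exact (mul_inv_eq_iff_eq_mul.1 h1).symm
  · intro h
    refine MulEquiv.ext fun v => Subtype.ext ?_
    rw [MulAut.conjNormal_apply, MulAut.one_apply, ← h v v.2, mul_inv_cancel_right]

theorem modelMap_range_normalizer :
    (modelMap V).range ≤ Subgroup.normalizer (modelModule V : Set (ModuleModel V)) := by
  rintro _ ⟨g, rfl⟩
  refine Subgroup.mem_normalizer_iff.2 fun x => ⟨?_, ?_⟩
  · rintro ⟨v, rfl⟩
    exact ⟨MulAut.conjNormal g v, (modelMap_conj V g v).symm⟩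
  · rintro ⟨v, hv⟩
    refine ⟨MulAut.conjNormal g⁻¹ v, ?_⟩
    rw [← modelMap_conj, hv, map_inv]
    group

theorem modelMap_inf_centralizer :
    (modelMap V).range ⊓ Subgroup.centralizer (modelModule V : Set (ModuleModel V)) = ⊥ := by
  rw [eq_bot_iff]
  rintro _ ⟨⟨g, rfl⟩, hg⟩
  rw [Subgroup.mem_bot, ← MonoidHom.mem_ker, ker_modelMap]
  exact (modelMap_mem_centralizer_iff V g).1 hg

theorem isElementaryAbelian_modelModule (hV : IsElementaryAbelian p V) :
    IsElementaryAbelian p (modelModule V) := by
  have h := isElementaryAbelian_subgroupOf (K := V) hV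
  rw [Subgroup.subgroupOf_self] at h
  rw [modelModule, MonoidHom.range_eq_map]
  exact isElementaryAbelian_map h _

theorem card_modelModule : Nat.card (modelModule V) = Nat.card V :=
  (Nat.card_congr (MonoidHom.ofInjective SemidirectProduct.inl_injective).toEquiv).symm

theorem modelModule_inf_centralizer (A : Subgroup G) :
    modelModule V ⊓ Subgroup.centralizer (A.map (modelMap V) : Set (ModuleModel V)) =
      ((V ⊓ Subgroup.centralizer (A : Set G)).subgroupOf V).map SemidirectProduct.inl := by
  ext x
  constructor
  · rintro ⟨⟨v, rfl⟩, hx⟩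
    refine ⟨v, ⟨v.2, fun a ha => ?_⟩, rfl⟩
    exact (modelMap_commute_iff V a v).1 (hx _ (Subgroup.mem_map_of_mem _ ha))
  · rintro ⟨v, hv, rfl⟩
    refine ⟨⟨v, rfl⟩, ?_⟩
    rintro _ ⟨a, ha, rfl⟩
    exact (modelMap_commute_iff V a v).2 (hv.2 a ha)

theorem card_modelModule_inf_centralizer (A : Subgroup G) :
    Nat.card ↥(modelModule V ⊓ Subgroup.centralizer (A.map (modelMap V) : Set (ModuleModel V))) =
      Nat.card ↥(V ⊓ Subgroup.centralizer (A : Set G)) := by
  rw [modelModule_inf_centralizer, Subgroup.card_map_of_injective SemidirectProduct.inl_injective,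
    Nat.card_congr (Subgroup.subgroupOfEquivOfLe inf_le_left).toEquiv]

theorem card_map_modelMap (A : Subgroup G) :
    Nat.card (A.map (modelMap V)) = (Subgroup.centralizer (V : Set G)).relIndex A := by
  rw [← Subgroup.relIndex_ker, ker_modelMap]

variable [Finite G]

instance : Finite (ModuleModel V) := Finite.of_equiv _ SemidirectProduct.equivProd.symm

variable [hp : Fact p.Prime]

theorem modelMap_range_isPSolvable (hsep : IsPSolvable p G) :
    IsPSolvable p (modelMap V).range :=
  PSolvable.isPSolvable_of_equiv (QuotientGroup.quotientKerEquivRange (modelMap V))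
    (PSolvable.isPSolvable_quotient hsep _)

theorem modelMap_range_pCore (hO : pCore p (G ⧸ Subgroup.centralizer (V : Set G)) = ⊥) :
    pCore p (modelMap V).range = ⊥ := by
  rw [← Cores.map_pCore_equiv ((QuotientGroup.quotientMulEquivOfEq (ker_modelMap V).symm).trans
    (QuotientGroup.quotientKerEquivRange (modelMap V))), hO, Subgroup.map_bot]

/-- A subnormal subgroup of the image inherits a trivial `p`-core and self-centralizing
`p'`-core. -/
theorem centralizer_pPrimeCore_le_of_subnormal (hsep : IsPSolvable p G)
    (hO : pCore p (G ⧸ Subgroup.centralizer (V : Set G)) = ⊥) {H : Subgroup (ModuleModel V)}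
    (hH : H ≤ (modelMap V).range) (hs : (H.subgroupOf (modelMap V).range).IsSubnormal) :
    Subgroup.centralizer (pPrimeCore p ↥H : Set ↥H) ≤ pPrimeCore p ↥H := by
  refine MetacyclicP.centralizer_pPrimeCore_le_self
    (PSolvable.isPSolvable_of_le (modelMap_range_isPSolvable V hsep) hH) ?_
  set e := (Subgroup.subgroupOfEquivOfLe hH).symm
  have h := Cores.map_subtype_pCore_le (p := p) hs
  rw [modelMap_range_pCore V hO, le_bot_iff,
    Subgroup.map_eq_bot_iff_of_injective _ (Subgroup.subtype_injective _)] at h
  rw [← Cores.map_pCore_equiv e.symm, h, Subgroup.map_bot]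

theorem range_self_cent (hsep : IsPSolvable p G)
    (hO : pCore p (G ⧸ Subgroup.centralizer (V : Set G)) = ⊥) :
    (modelMap V).range ⊓ Subgroup.centralizer
      (coreOf p (modelMap V).range : Set (ModuleModel V)) ≤ coreOf p (modelMap V).range := by
  have hs : ((modelMap V).range.subgroupOf (modelMap V).range).IsSubnormal := by
    rw [Subgroup.subgroupOf_self]
    exact .top
  have h := centralizer_pPrimeCore_le_of_subnormal V hsep hO le_rfl hs
  exact fun x hx => ⟨⟨x, hx.1⟩, h fun _ hq => Subtype.ext
    (hx.2 _ (Subgroup.mem_map_of_mem (modelMap V).range.subtype hq)), rfl⟩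

theorem ffAction_model (hsep : IsPSolvable p G) (hV : IsElementaryAbelian p V)
    (hO : pCore p (G ⧸ Subgroup.centralizer (V : Set G)) = ⊥) {A : Subgroup G}
    (hA : IsElementaryAbelian p A) :
    FFAction p (modelModule V) (A.map (modelMap V)) (coreOf p (modelMap V).range) where
  elemV := isElementaryAbelian_modelModule V hV
  elemA := isElementaryAbelian_map hA _
  le_normalizer := (Subgroup.map_le_range _ _).trans (modelMap_range_normalizer V)
  le_normalizer' := (Subgroup.map_subtype_le _).trans (modelMap_range_normalizer V)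
  le_normalizer_core := (Subgroup.map_le_range _ _).trans
    (Subgroup.le_normalizer.trans (Cores.normalizer_le_normalizer_map_subtype _ _))
  coprime := by
    rw [Subgroup.card_map_of_injective (modelMap V).range.subtype_injective]
    exact Cores.card_pPrimeCore_coprime p
  faithful_core := le_bot_iff.1 (modelMap_inf_centralizer V ▸
    inf_le_inf_right _ (Subgroup.map_subtype_le _))
  faithful := by
    have hc : (Nat.card ↥(coreOf p (modelMap V).range)).Coprime p := by
      rw [Subgroup.card_map_of_injective (modelMap V).range.subtype_injective]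
      exact Cores.card_pPrimeCore_coprime p
    rw [Subgroup.eq_bot_iff_forall]
    intro x hx
    have hxQ := range_self_cent V hsep hO ⟨Subgroup.map_le_range _ _ hx.1, hx.2⟩
    rw [← orderOf_eq_one_iff]
    refine Nat.eq_one_of_dvd_coprimes hc (Subgroup.orderOf_dvd_natCard _ hxQ)
      (orderOf_dvd_of_pow_eq_one ((isElementaryAbelian_map hA _).2 x hx.1))

/-- The bound `|A : C_A(V)| |C_V(A)| ≤ |V|`. -/
theorem relIndex_mul_card_fixed_le (hsep : IsPSolvable p G) (hV : IsElementaryAbelian p V)
    (hO : pCore p (G ⧸ Subgroup.centralizer (V : Set G)) = ⊥) {A : Subgroup G}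
    (hA : IsElementaryAbelian p A) :
    (Subgroup.centralizer (V : Set G)).relIndex A *
      Nat.card ↥(V ⊓ Subgroup.centralizer (A : Set G)) ≤ Nat.card V := by
  have h := (ffAction_model V hsep hV hO hA).card_mul_le
  rwa [card_map_modelMap, card_modelModule_inf_centralizer, card_modelModule] at h

theorem isBestOffenderOn_map_modelMap {A : Subgroup G} (hA : IsBestOffenderOn p V A)
    (hAe : IsElementaryAbelian p A) :
    IsBestOffenderOn p (modelModule V) (A.map (modelMap V)) := by
  refine ⟨fun B hB => ?_, ?_, fun a ha => ?_⟩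
  · set B' := A ⊓ B.comap (modelMap V) with hB'
    have hmap : B'.map (modelMap V) = B := le_antisymm
      ((Subgroup.map_mono inf_le_right).trans (Subgroup.map_comap_le _ _)) fun b hb => by
      obtain ⟨a, ha, rfl⟩ := hB hb
      exact ⟨a, ⟨ha, hb⟩, rfl⟩
    rw [← hmap, card_map_modelMap, card_modelModule_inf_centralizer, card_map_modelMap,
      card_modelModule_inf_centralizer]
    set C := Subgroup.centralizer (V : Set G) with hC
    have hinf : B' ⊓ C = A ⊓ C := by
      refine le_antisymm (inf_le_inf_right _ inf_le_left)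
        (le_inf (le_inf inf_le_left fun x hx => ?_) inf_le_right)
      show modelMap V x ∈ B
      rw [show modelMap V x = 1 from (ker_modelMap V).ge hx.2]
      exact one_mem B
    have hcard : ∀ X : Subgroup G, C.relIndex X * Nat.card ↥(X ⊓ C) = Nat.card X := by
      intro X
      rw [← Subgroup.inf_relIndex_left X C, mul_comm, ← Subgroup.relIndex_bot_left,
        Subgroup.relIndex_mul_relIndex _ _ _ bot_le inf_le_left, Subgroup.relIndex_bot_left]
    have h1 := hA.1 B' inf_le_left
    rw [← hcard B', ← hcard A, hinf, mul_right_comm, mul_right_comm (C.relIndex A)] at h1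
    exact Nat.le_of_mul_le_mul_right h1 Nat.card_pos
  · rw [Subgroup.commutator_eq_bot_iff_le_centralizer.2
      (isElementaryAbelian_le_centralizer (isElementaryAbelian_map hAe _))]
    exact bot_le
  · rw [(isElementaryAbelian_map hAe _).2 a ha]
    exact one_mem _

end CfsgLib.ThompsonJ
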