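import Cfsg.Agent.Lib.ThompsonJ.FF.ModuleModel
import Cfsg.Agent.Lib.ThompsonJ.FF.Decomposition
import Cfsg.Agent.Lib.ThompsonJ.Factorization
import Cfsg.Agent.Lib.PSolvable.HallHigman

/-!
Failure of factorization in a `p`-solvable group (`CfsgLib.ThompsonJ`).
-/

set_option autoImplicit false
set_option linter.unusedSectionVars false
set_option linter.style.haveILetI false

open scoped commutatorElement MatrixGroups

namespace CfsgLib.ThompsonJ

open Cfsg

universe u

variable {G : Type u} [Group G] [Finite G] {p : ℕ} [hp : Fact p.Prime]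

/-- `J(G)` moves `Ω₁(Z(J(C(V))))` only inside `V`. -/
theorem commutator_omegaCenterThompson_le (hsep : IsPSolvable p G) (V : Subgroup G) [V.Normal]
    (hV : IsElementaryAbelian p V)
    (hO : pCore p (G ⧸ Subgroup.centralizer (V : Set G)) = ⊥) :
    ⁅omegaOne p (centerThompsonOf p (Subgroup.centralizer (V : Set G))), thompsonSubgroup p G⁆ ≤
      V := by
  set C := Subgroup.centralizer (V : Set G) with hC
  set W := omegaOne p (centerThompsonOf p C) with hW
  set π := QuotientGroup.mk' V with hπ
  suffices h : thompsonSubgroup p G ≤ (Subgroup.centralizer ((W.map π : Subgroup (G ⧸ V)) :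
      Set (G ⧸ V))).comap π by
    rw [← QuotientGroup.ker_mk' V, ← Subgroup.map_eq_bot_iff, Subgroup.map_commutator,
      Subgroup.commutator_eq_bot_iff_le_centralizer, Subgroup.le_centralizer_iff]
    exact Subgroup.map_le_iff_le_comap.2 h
  rw [← thompsonSubgroupOf_top, thompsonSubgroupOf_le_iff]
  intro A hA
  set B := A ⊓ C with hB
  have hBe : IsElementaryAbelian p B := isElementaryAbelian_mono hA.elem inf_le_left
  have hVB : V ≤ Subgroup.centralizer (B : Set G) := Subgroup.le_centralizer_iff.1 inf_le_right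
  have hYe : IsElementaryAbelian p (V ⊔ B) := isElementaryAbelian_sup hV hBe hVB
  have hcard : Nat.card A ≤ Nat.card ↥(V ⊔ B) := by
    have h1 : C.relIndex A * Nat.card B = Nat.card A := by
      rw [hB, ← Subgroup.inf_relIndex_left A C, mul_comm, ← Subgroup.relIndex_bot_left,
        Subgroup.relIndex_mul_relIndex _ _ _ bot_le inf_le_left, Subgroup.relIndex_bot_left]
    have h2 := relIndex_mul_card_fixed_le V hsep hV hO hA.elem
    have h3 := card_sup_mul_card_inf V B (hVB.trans (Subgroup.centralizer_le_normalizer _))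
    have h4 : Nat.card ↥(V ⊓ B) ≤ Nat.card ↥(V ⊓ Subgroup.centralizer (A : Set G)) :=
      Subgroup.card_le_of_le (inf_le_inf_left _
        (inf_le_left.trans (isElementaryAbelian_le_centralizer hA.elem)))
    refine Nat.le_of_mul_le_mul_right ?_ (Nat.card_pos (α := ↥(V ⊓ Subgroup.centralizer (A : Set G))))
    calc Nat.card A * Nat.card ↥(V ⊓ Subgroup.centralizer (A : Set G))
        = Nat.card B * (C.relIndex A * Nat.card ↥(V ⊓ Subgroup.centralizer (A : Set G))) := by
          rw [← h1]; ring
      _ ≤ Nat.card B * Nat.card V := Nat.mul_le_mul_left _ h2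
      _ = Nat.card ↥(V ⊔ B) * Nat.card ↥(V ⊓ B) := by rw [h3, mul_comm]
      _ ≤ _ := Nat.mul_le_mul_left _ h4
  have hY : IsMaxEA p C (V ⊔ B) :=
    ⟨sup_le (isElementaryAbelian_le_centralizer hV) inf_le_right, hYe,
      fun D _ hDe => (hA.card_le D le_top hDe).trans hcard⟩
  have hWY : W ≤ V ⊔ B := omegaOne_centerThompsonOf_le hY
  intro a ha
  rw [Subgroup.mem_comap]
  rintro _ ⟨w, hw, rfl⟩
  have hle : (V ⊔ B).map π ≤ Subgroup.centralizer ({π a} : Set (G ⧸ V)) := by
    rw [Subgroup.map_sup, sup_le_iff]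
    refine ⟨?_, ?_⟩
    · rintro _ ⟨v, hv, rfl⟩
      rw [show π v = 1 from (QuotientGroup.eq_one_iff v).2 hv]
      exact one_mem _
    · rintro _ ⟨b, hb, rfl⟩
      rw [Subgroup.mem_centralizer_singleton_iff, ← map_mul, ← map_mul,
        isElementaryAbelian_comm hA.elem hb.1 ha]
  exact Subgroup.mem_centralizer_singleton_iff.1 (hle (Subgroup.mem_map_of_mem π (hWY hw)))

/-- The image of `J(G)` in the model satisfies the structure theorem. -/
theorem ffSetting_thompson (hsep : IsPSolvable p G) (V : Subgroup G) [V.Normal]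
    (hV : IsElementaryAbelian p V)
    (hO : pCore p (G ⧸ Subgroup.centralizer (V : Set G)) = ⊥) :
    FFSetting p (modelModule V) ((thompsonSubgroup p G).map (modelMap V)) := by
  set H := (thompsonSubgroup p G).map (modelMap V) with hH
  have hHR : H ≤ (modelMap V).range := Subgroup.map_le_range _ _
  haveI : (thompsonSubgroup p G).Characteristic := thompsonSubgroup_characteristic p G
  have hs : (H.subgroupOf (modelMap V).range).IsSubnormal := by
    have h1 := Subnormal.isSubnormal_subgroupOf_map (modelMap V)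
      (le_top : thompsonSubgroup p G ≤ ⊤)
      (Subnormal.isSubnormal_subgroupOf_top.2 (inferInstance :
        (thompsonSubgroup p G).Normal).isSubnormal)
    rwa [← MonoidHom.range_eq_map] at h1
  refine FFSetting.of_hyp (isElementaryAbelian_modelModule V hV)
    (hHR.trans (modelMap_range_normalizer V))
    (le_bot_iff.1 (modelMap_inf_centralizer V ▸ inf_le_inf_right _ hHR))
    (centralizer_pPrimeCore_le_of_subnormal V hsep hO hHR hs) ?_
  refine le_antisymm ?_ (iSup_le fun A => A.2.1)
  rw [hH, Subgroup.map_le_iff_le_comap]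
  refine (thompsonSubgroupOf_top p G).ge.trans (thompsonSubgroupOf_le_iff.2 fun A hA => ?_)
  rw [← Subgroup.map_le_iff_le_comap]
  exact le_iSup_of_le ⟨A.map (modelMap V), Subgroup.map_mono
    ((le_thompsonSubgroupOf hA).trans (thompsonSubgroupOf_top p G).le),
    isBestOffenderOn_map_modelMap V (isBestOffenderOn_of_isMaxEA hV le_top hA) hA.elem⟩ le_rfl

/-- The normal closure of the `Ω₁(Z(S))`. -/
abbrev omegaSpan (p : ℕ) (G : Type*) [Group G] : Subgroup G :=
  ⨆ S : Sylow p G, omegaOne p ((S : Subgroup G) ⊓ Subgroup.centralizer ((S : Subgroup G) : Set G))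

theorem omegaSpan_data (hsep : IsPSolvable p G) (hO : pPrimeCore p G = ⊥) :
    ∃ _ : (omegaSpan p G).Normal, IsElementaryAbelian p (omegaSpan p G) ∧
      pCore p (G ⧸ Subgroup.centralizer (omegaSpan p G : Set G)) = ⊥ := by
  haveI hn : (omegaSpan p G).Normal := iSup_omegaCenter_normal
  refine ⟨hn, isElementaryAbelian_iSup_omegaCenter (PSolvable.centralizer_pCore_le hsep hO),
    pCore_quotient_centralizer_eq_bot (ι := Sylow p G)
      (W := fun S => omegaOne p ((S : Subgroup G) ⊓ Subgroup.centralizer ((S : Subgroup G) : Set G)))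
      (T := fun S => S) le_rfl sylow_le_centralizer_omegaCenter
      fun S => le_iSup (fun T : Sylow p G =>
        omegaOne p ((T : Subgroup G) ⊓ Subgroup.centralizer ((T : Subgroup G) : Set G))) S⟩

/-- Failure of factorization gives `SL(2, p)`, `p ≤ 3`. -/
theorem exists_sl2_of_not_factorizable (hsep : IsPSolvable p G) (hO : pPrimeCore p G = ⊥)
    (hnf : ¬ IsThompsonFactorizable p G) :
    (p = 2 ∨ p = 3) ∧ ∃ E : Subgroup G,
      Subgroup.centralizer (omegaSpan p G : Set G) ≤ E ∧
      E ≤ thompsonSubgroup p G ⊔ Subgroup.centralizer (omegaSpan p G : Set G) ∧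
      thompsonSubgroup p G ⊔ Subgroup.centralizer (omegaSpan p G : Set G) ≤
        Subgroup.normalizer (E : Set G) ∧
      ∃ _hn : ((Subgroup.centralizer (omegaSpan p G : Set G)).subgroupOf E).Normal,
        Nonempty ((↥E ⧸ (Subgroup.centralizer (omegaSpan p G : Set G)).subgroupOf E) ≃*
          SL(2, ZMod p)) := by
  obtain ⟨hn, hV, hOV⟩ := omegaSpan_data hsep hO
  set V := omegaSpan p G with hVdef
  haveI := hn
  set θ := modelMap V with hθ
  set C := Subgroup.centralizer (V : Set G) with hC
  set J := thompsonSubgroup p G with hJ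
  have h : FFSetting p (modelModule V) (J.map θ) := ffSetting_thompson hsep V hV hOV
  have hker : θ.ker = C := ker_modelMap V
  have hH1 : J.map θ ≠ ⊥ := by
    intro hb
    rw [Subgroup.map_eq_bot_iff, hker] at hb
    refine hnf fun S g => ⟨1, one_mem _, ?_⟩
    obtain ⟨c, hc, n, hn', rfl⟩ := factorization_of_le_centralizer hb S g
    exact ⟨c, hc, n, hn', by rw [one_mul]⟩
  obtain ⟨a, ha⟩ := exists_root h hH1
  refine ⟨ha.prime_two_or_three h, (rootFactor p (J.map θ) a).comap θ, ?_, ?_, ?_, ?_⟩
  · rw [← hker]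
    exact Subgroup.ker_le_comap _ _
  · refine (Subgroup.comap_mono (ha.factor_le h)).trans ?_
    rw [Subgroup.comap_map_eq, hker]
  · intro g hg
    have hg' : θ g ∈ Subgroup.normalizer (rootFactor p (J.map θ) a : Set (ModuleModel V)) := by
      refine le_normalizer_factor h ha ?_
      have h1 := Subgroup.mem_map_of_mem θ hg
      rwa [Subgroup.map_sup, show C.map θ = ⊥ from by
        rw [Subgroup.map_eq_bot_iff, hker], sup_bot_eq] at h1
    rw [Subgroup.mem_normalizer_iff]
    intro x
    simp only [Subgroup.mem_comap, map_mul, map_inv]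
    exact Subgroup.mem_normalizer_iff.1 hg' (θ x)
  · set E := (rootFactor p (J.map θ) a).comap θ with hE
    have hsurj : Function.Surjective (θ.subgroupComap (rootFactor p (J.map θ) a)) := by
      rintro ⟨y, hy⟩
      obtain ⟨x, -, rfl⟩ := ha.factor_le h hy
      exact ⟨⟨x, hy⟩, rfl⟩
    have hk : (θ.subgroupComap (rootFactor p (J.map θ) a)).ker = C.subgroupOf E := by
      ext x
      rw [MonoidHom.mem_ker, Subgroup.mem_subgroupOf, ← hker, MonoidHom.mem_ker, Subtype.ext_iff]
      rfl
    have hnorm : (C.subgroupOf E).Normal := hk ▸ MonoidHom.normal_ker _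
    obtain ⟨e⟩ := ha.nonempty_mulEquiv h
    exact ⟨hnorm, ⟨((QuotientGroup.quotientMulEquivOfEq hk.symm).trans
      (QuotientGroup.quotientKerEquivOfSurjective _ hsurj)).trans e⟩⟩

end CfsgLib.ThompsonJ
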