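import Cfsg.Agent.Lib.ThompsonJ.FF.Orbit
import Cfsg.Agent.Lib.ThompsonJ.FF.Quotient
import Cfsg.Agent.Lib.ThompsonJ.SylowTools

/-!
Failure of factorization in the presence of a coprime elementary abelian group of operators
(`CfsgLib.ThompsonJ`).
-/

set_option autoImplicit false
set_option linter.unusedSectionVars false
set_option linter.style.haveILetI false

open scoped MatrixGroups

namespace CfsgLib.ThompsonJ

open Cfsg

universe u

variable {G : Type u} [Group G] [Finite G] {p q : ℕ} [hp : Fact p.Prime] [hq : Fact q.Prime]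
  {K X : Subgroup G}

/-- A `p`-solvable normal subgroup `K` with trivial `p'`-core, complemented by a coprime
elementary abelian `q`-group. -/
structure CoprimeSetting (p q : ℕ) (K X : Subgroup G) : Prop where
  normal : K.Normal
  sup_eq_top : K ⊔ X = ⊤
  elemX : IsElementaryAbelian q X
  not_dvd : ¬ q ∣ Nat.card K
  ne : q ≠ p
  sep : IsPSolvable p ↥K
  core : pPrimeCore p ↥K = ⊥

namespace CoprimeSetting

theorem not_dvd_index (h : CoprimeSetting p q K X) : ¬ p ∣ K.index := by
  haveI := h.normal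
  have h1 : K.index ∣ Nat.card X := by
    have := Subgroup.relIndex_sup_right (H := X) (K := K)
    rw [sup_comm, h.sup_eq_top, Subgroup.relIndex_top_right] at this
    rw [this]
    exact Subgroup.relIndex_dvd_card ..
  intro hd
  obtain ⟨n, hn⟩ := IsPGroup.iff_card.1 (isPGroup_of_isElementaryAbelian h.elemX)
  exact h.ne ((Nat.prime_dvd_prime_iff_eq hp.out hq.out).1
    (hp.out.dvd_of_dvd_pow (hn ▸ hd.trans h1))).symm

theorem le_of_isPGroup (h : CoprimeSetting p q K X) {A : Subgroup G} (hA : IsPGroup p A) :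
    A ≤ K := by
  haveI := h.normal
  intro a ha
  obtain ⟨k, hk⟩ := hA ⟨a, ha⟩
  rw [← QuotientGroup.eq_one_iff, ← orderOf_eq_one_iff]
  refine Nat.eq_one_of_dvd_coprimes (b := p ^ k) ?_ (orderOf_dvd_natCard _)
    (orderOf_dvd_of_pow_eq_one ?_)
  · rw [← Subgroup.index_eq_card]
    exact ((hp.out.coprime_iff_not_dvd).2 h.not_dvd_index).symm.pow_right k
  · rw [← QuotientGroup.mk_pow, show a ^ p ^ k = 1 from congrArg Subtype.val hk, QuotientGroup.mk_one]

theorem thompson_le (h : CoprimeSetting p q K X) : thompsonSubgroup p G ≤ K := by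
  rw [← thompsonSubgroupOf_top, thompsonSubgroupOf_le_iff]
  exact fun A hA => h.le_of_isPGroup (isPGroup_of_isElementaryAbelian hA.elem)

theorem isPSolvable (h : CoprimeSetting p q K X) : IsPSolvable p G := by
  haveI := h.normal
  refine PSolvable.isPSolvable_of_extension K h.sep (PSolvable.isPSolvable_of_not_dvd ?_)
  rw [← Subgroup.index_eq_card]
  exact h.not_dvd_index

theorem omegaCenter_map (S : Subgroup ↥K) :
    (omegaOne p (S ⊓ Subgroup.centralizer (S : Set ↥K))).map K.subtype =
      omegaOne p (S.map K.subtype ⊓ Subgroup.centralizer (S.map K.subtype : Set G)) := by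
  rw [map_omegaOne K.subtype_injective, map_inf_centralizer K.subtype_injective]

theorem exists_sylow_map (h : CoprimeSetting p q K X) (S : Sylow p ↥K) :
    ∃ T : Sylow p G, (T : Subgroup G) = (S : Subgroup ↥K).map K.subtype := by
  have hS : IsPGroup p ((S : Subgroup ↥K).map K.subtype) := S.isPGroup'.map _
  refine ⟨hS.toSylow ?_, IsPGroup.toSylow_coe ..⟩
  rw [Subgroup.index_map_subtype]
  intro hd
  exact (hp.out.dvd_mul.1 hd).elim S.not_dvd_index h.not_dvd_index

theorem omegaSpan_eq (h : CoprimeSetting p q K X) :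
    omegaSpan p G = (omegaSpan p ↥K).map K.subtype := by
  refine le_antisymm (iSup_le fun T => ?_) ?_
  · have hT : (T : Subgroup G) ≤ K := h.le_of_isPGroup T.isPGroup'
    have hS := omegaCenter_map (p := p) ((T.subtype hT : Sylow p ↥K) : Subgroup ↥K)
    rw [Sylow.coe_subtype, Subgroup.map_subgroupOf_eq_of_le hT] at hS
    rw [← hS, ← Sylow.coe_subtype (h := hT)]
    exact Subgroup.map_mono (le_iSup (fun S : Sylow p ↥K => omegaOne p
      ((S : Subgroup ↥K) ⊓ Subgroup.centralizer ((S : Subgroup ↥K) : Set ↥K))) _)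
  · rw [omegaSpan, Subgroup.map_iSup]
    refine iSup_le fun S => ?_
    obtain ⟨T, hT⟩ := h.exists_sylow_map S
    rw [omegaCenter_map, ← hT]
    exact le_iSup (fun T : Sylow p G => omegaOne p
      ((T : Subgroup G) ⊓ Subgroup.centralizer ((T : Subgroup G) : Set G))) T

theorem omegaSpan_le (h : CoprimeSetting p q K X) : omegaSpan p G ≤ K :=
  h.omegaSpan_eq.le.trans (Subgroup.map_subtype_le _)

theorem omegaSpan_elem (h : CoprimeSetting p q K X) : IsElementaryAbelian p (omegaSpan p G) := by
  rw [h.omegaSpan_eq]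
  exact isElementaryAbelian_map (isElementaryAbelian_iSup_omegaCenter
    (PSolvable.centralizer_pCore_le h.sep h.core)) _

theorem omegaSpan_core (h : CoprimeSetting p q K X) [(omegaSpan p G).Normal] :
    pCore p (G ⧸ Subgroup.centralizer (omegaSpan p G : Set G)) = ⊥ :=
  pCore_quotient_centralizer_eq_bot (ι := Sylow p G)
    (W := fun S => omegaOne p ((S : Subgroup G) ⊓ Subgroup.centralizer ((S : Subgroup G) : Set G)))
    (T := fun S => S) le_rfl sylow_le_centralizer_omegaCenter
    fun S => le_iSup (fun T : Sylow p G =>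
      omegaOne p ((T : Subgroup G) ⊓ Subgroup.centralizer ((T : Subgroup G) : Set G))) S

variable [(omegaSpan p G).Normal]

theorem operators (h : CoprimeSetting p q K X) :
    FFOperators p q (modelModule (omegaSpan p G))
      ((thompsonSubgroup p G).map (modelMap (omegaSpan p G)))
      (X.map (modelMap (omegaSpan p G))) where
  setting := ffSetting_thompson h.isPSolvable _ h.omegaSpan_elem h.omegaSpan_core
  le_normalizer_module := (Subgroup.map_le_range _ _).trans (modelMap_range_normalizer _)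
  le_normalizer_group := by
    haveI : (thompsonSubgroup p G).Characteristic := thompsonSubgroup_characteristic p G
    rintro _ ⟨x, -, rfl⟩
    refine CoprimeAction.mem_normalizer_of_conj_mem ?_
    rintro _ ⟨j, hj, rfl⟩
    exact ⟨x * j * x⁻¹, (inferInstance : (thompsonSubgroup p G).Normal).conj_mem j hj x, by simp⟩
  isPGroup := (isPGroup_of_isElementaryAbelian h.elemX).map _
  not_dvd := fun hd => h.not_dvd (hd.trans
    ((Subgroup.card_map_dvd _ _).trans (Subgroup.card_dvd_of_le h.thompson_le)))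

/-- Fixed elements of the image of `J(G)` lift to fixed elements. -/
theorem exists_lift (h : CoprimeSetting p q K X) {c : ModuleModel (omegaSpan p G)}
    (hc : c ∈ (thompsonSubgroup p G).map (modelMap (omegaSpan p G)) ⊓
      Subgroup.centralizer (X.map (modelMap (omegaSpan p G)) : Set _)) :
    ∃ k ∈ thompsonSubgroup p G ⊓ Subgroup.centralizer (X : Set G),
      modelMap (omegaSpan p G) k = c := by
  set θ := modelMap (omegaSpan p G) with hθ
  haveI := h.elemX.1
  haveI : (thompsonSubgroup p G).Characteristic := thompsonSubgroup_characteristic p G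
  set N := thompsonSubgroup p G ⊓ θ.ker with hN
  haveI : N.Normal := inferInstance
  obtain ⟨⟨k, hk, rfl⟩, hcX⟩ := hc
  have hcop : (Nat.card X).Coprime (Nat.card N) := by
    obtain ⟨n, hn⟩ := IsPGroup.iff_card.1 (isPGroup_of_isElementaryAbelian h.elemX)
    rw [hn]
    exact ((hq.out.coprime_iff_not_dvd).2 fun hd => h.not_dvd (hd.trans (Subgroup.card_dvd_of_le
      (inf_le_left.trans h.thompson_le)))).pow_left n
  have hfix : ∀ x ∈ X, k⁻¹ * (x * k * x⁻¹) ∈ N := by
    intro x hx
    refine ⟨(thompsonSubgroup p G).mul_mem ((thompsonSubgroup p G).inv_mem hk)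
      ((inferInstance : (thompsonSubgroup p G).Normal).conj_mem k hk x), ?_⟩
    show θ (k⁻¹ * (x * k * x⁻¹)) = 1
    rw [map_mul, map_mul, map_mul, map_inv, map_inv, hcX _ (Subgroup.mem_map_of_mem θ hx),
      mul_inv_cancel_right, inv_mul_cancel]
  obtain ⟨c, ⟨hcJ, hcX'⟩, hcN⟩ := CoprimeAction.exists_centralizer_mem_coset_of_le
    (A := X) (K := thompsonSubgroup p G) (N := N)
    (Subgroup.normalizer_eq_top (H := N) ▸ le_top) inf_le_left hcop
    (Or.inl (CoprimeAction.isSolvable_of_isMulCommutative X)) hk hfix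
  refine ⟨c, ⟨hcJ, hcX'⟩, ?_⟩
  have h1 : θ (k⁻¹ * c) = 1 := hcN.2
  rw [map_mul, map_inv, inv_mul_eq_one] at h1
  exact h1.symm

theorem exists_mem_of_prime_dvd (h : CoprimeSetting p q K X) (S : Sylow p G)
    {a : ModuleModel (omegaSpan p G)}
    (ha : IsRoot p (modelModule (omegaSpan p G))
      ((thompsonSubgroup p G).map (modelMap (omegaSpan p G))) (Subgroup.zpowers a)) :
    p ∣ Nat.card ↥(((S : Subgroup G) ⊓ thompsonSubgroup p G).map (modelMap (omegaSpan p G)) ⊓
      rootFactor p ((thompsonSubgroup p G).map (modelMap (omegaSpan p G))) a) := by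
  set θ := modelMap (omegaSpan p G) with hθ
  set J := thompsonSubgroup p G with hJ
  haveI : J.Characteristic := thompsonSubgroup_characteristic p G
  set P := ((S : Subgroup G) ⊓ J).map θ with hP
  set E := rootFactor p (J.map θ) a with hE
  have hset := h.operators.setting
  have hPH : P ≤ J.map θ := Subgroup.map_mono inf_le_right
  have hEH : E ≤ J.map θ := ha.factor_le hset
  have hcard : ∀ {H : Type u} [Group H] [Finite H] {A B : Subgroup H}, A ≤ B →
      A.relIndex B * Nat.card A = Nat.card B := fun {H} _ _ {A B} hAB => by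
    rw [mul_comm, ← Subgroup.relIndex_bot_left, Subgroup.relIndex_mul_relIndex _ _ _ bot_le hAB,
      Subgroup.relIndex_bot_left]
  have h1 : ¬ p ∣ P.relIndex (J.map θ) := by
    intro hd
    have himg : ∀ A : Subgroup G, Nat.card (A.map θ) * Nat.card ↥(A ⊓ θ.ker) = Nat.card A := by
      intro A
      rw [← Subgroup.relIndex_ker, ← Subgroup.inf_relIndex_left]
      exact hcard inf_le_left
    obtain ⟨t, ht⟩ := Subgroup.card_dvd_of_le
      (inf_le_inf_right θ.ker (inf_le_right : (S : Subgroup G) ⊓ J ≤ J))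
    have hkey : P.relIndex (J.map θ) * t = ((S : Subgroup G) ⊓ J).relIndex J := by
      refine Nat.eq_of_mul_eq_mul_right (Nat.card_pos (α := ↥((S : Subgroup G) ⊓ J))) ?_
      rw [hcard inf_le_right]
      conv_lhs => rw [← himg ((S : Subgroup G) ⊓ J), ← hP]
      rw [← himg J, ht, ← hcard hPH]
      ring
    exact not_dvd_relIndex_inf_sylow S J (hkey ▸ hd.trans (dvd_mul_right _ t))
  have hn : P ≤ Subgroup.normalizer (E : Set _) := hPH.trans (le_normalizer_factor hset ha)
  have h2 := card_sup_mul_card_inf P E hn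
  have hmul : ∀ {A B : Subgroup (ModuleModel (omegaSpan p G))}, A ≤ B →
      A.relIndex B * Nat.card A = Nat.card B := fun hAB => by
    rw [mul_comm, ← Subgroup.relIndex_bot_left, Subgroup.relIndex_mul_relIndex _ _ _ bot_le hAB,
      Subgroup.relIndex_bot_left]
  have h3 : P.relIndex (P ⊔ E) ∣ P.relIndex (J.map θ) :=
    ⟨(P ⊔ E).relIndex (J.map θ), (Subgroup.relIndex_mul_relIndex _ _ _ le_sup_left
      (sup_le hPH hEH)).symm⟩
  have h4 : p ∣ Nat.card E := by
    rw [ha.card_factor hset]
    exact dvd_mul_right _ _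
  rw [← hmul (le_sup_left : P ≤ P ⊔ E), mul_right_comm, mul_comm (Nat.card P)] at h2
  have h5 := Nat.eq_of_mul_eq_mul_right Nat.card_pos h2
  rw [← h5] at h4
  exact (hp.out.dvd_mul.1 h4).resolve_left fun hd => h1 (hd.trans h3)

/-- The generation statement, inside `K ⊔ X`. -/
theorem le_of_generators (h : CoprimeSetting p q K X) (S : Sylow p G) (M : Subgroup G)
    (hN : K ⊓ Subgroup.normalizer (thompsonSubgroupOf p (S : Subgroup G) : Set G) ≤ M)
    (hC : K ⊓ Subgroup.centralizer (omegaOne p ((S : Subgroup G) ⊓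
      Subgroup.centralizer ((S : Subgroup G) : Set G)) : Set G) ≤ M)
    (hX : K ⊓ Subgroup.centralizer (X : Set G) ≤ M) : K ≤ M := by
  set V := omegaSpan p G with hV
  set θ := modelMap V with hθ
  set J := thompsonSubgroup p G with hJ
  haveI : J.Characteristic := thompsonSubgroup_characteristic p G
  have hP := h.operators
  have hset := hP.setting
  have hCV : K ⊓ Subgroup.centralizer (V : Set G) ≤ M := (inf_le_inf_left _
    (Subgroup.centralizer_le (SetLike.coe_subset_coe.2 (le_iSup (fun T : Sylow p G => omegaOne p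
      ((T : Subgroup G) ⊓ Subgroup.centralizer ((T : Subgroup G) : Set G))) S)))).trans hC
  have hH : J.map θ ≤ (M ⊓ K).map θ := by
    conv_lhs => rw [← iSup_factors_eq hset]
    rintro e he
    refine (iSup_le fun F => ?_ : (⨆ F : {E // IsRootFactor p (modelModule V) (J.map θ) E},
      (F : Subgroup (ModuleModel V))) ≤ (M ⊓ K).map θ) he
    obtain ⟨a, ha, hFa⟩ := F.2
    rw [hFa]
    set E := rootFactor p (J.map θ) a with hE
    set U := (M ⊓ K).map θ ⊓ E with hU
    -- `E` normalizes `U`
    have hnorm : E ≤ Subgroup.normalizer (U : Set (ModuleModel V)) := by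
      intro y hy
      refine CoprimeAction.mem_normalizer_of_conj_mem fun z hz => ⟨?_, ?_⟩
      · obtain ⟨c, hc, hcr⟩ := hP.exists_fixed_factor ha hy
        obtain ⟨k, hk, hkc⟩ := h.exists_lift hc
        have hcm : c ∈ (M ⊓ K).map θ :=
          ⟨k, ⟨hX ⟨h.thompson_le hk.1, hk.2⟩, h.thompson_le hk.1⟩, hkc⟩
        have hrz : (y⁻¹ * c) * z * (y⁻¹ * c)⁻¹ = z := by
          rw [← (otherFactors_le hset ha hcr).1.2 z hz.2, mul_inv_cancel_right]
        have e : y * z * y⁻¹ = c * z * c⁻¹ := by
          calc y * z * y⁻¹ = y * ((y⁻¹ * c) * z * (y⁻¹ * c)⁻¹) * y⁻¹ := by rw [hrz]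
            _ = c * z * c⁻¹ := by group
        rw [e]
        exact Subgroup.mul_mem _ (Subgroup.mul_mem _ hcm hz.1) (Subgroup.inv_mem _ hcm)
      · exact Subgroup.mul_mem _ (Subgroup.mul_mem _ hy hz.2) (Subgroup.inv_mem _ hy)
    have hUE : U ≤ E := inf_le_right
    haveI : (U.subgroupOf E).Normal := Subgroup.normal_subgroupOf_of_le_normalizer hnorm
    have hSM : (S : Subgroup G) ⊓ J ≤ M ⊓ K := by
      refine le_inf ((inf_le_left.trans (le_inf (h.le_of_isPGroup S.isPGroup')
        (Subgroup.le_normalizer.trans (normalizer_le_normalizer_thompsonSubgroupOf p _)))).trans hN)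
        (inf_le_left.trans (h.le_of_isPGroup S.isPGroup'))
    have hpU : p ∣ Nat.card U := (h.exists_mem_of_prime_dvd S ha).trans
      (Subgroup.card_dvd_of_le (inf_le_inf_right _ (Subgroup.map_mono hSM)))
    have hidx : ¬ p ∣ (U.subgroupOf E).index := by
      intro hd
      have h1 : Nat.card U * (U.subgroupOf E).index = p * (p ^ 2 - 1) := by
        rw [← ha.card_factor hset, ← (U.subgroupOf E).card_mul_index,
          Nat.card_congr (Subgroup.subgroupOfEquivOfLe hUE).toEquiv]
      have h2 : p * p ∣ p * (p ^ 2 - 1) := h1 ▸ Nat.mul_dvd_mul hpU hd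
      have h3 : p ∣ p ^ 2 - 1 := Nat.dvd_of_mul_dvd_mul_left hp.out.pos h2
      have h4 := Nat.dvd_sub (dvd_pow_self p two_ne_zero) h3
      rw [Nat.sub_sub_self (Nat.one_le_pow _ _ hp.out.pos), Nat.dvd_one] at h4
      exact hp.out.ne_one h4
    have hroot : ∀ {g : ModuleModel V}, g ∈ E → g ^ p = 1 → g ∈ U := by
      intro g hg hgp
      have h1 := (U.subgroupOf E).pow_index_mem ⟨g, hg⟩
      rw [Subgroup.mem_subgroupOf, SubgroupClass.coe_pow] at h1
      obtain ⟨s, t, hst⟩ : ∃ s t : ℤ, ((U.subgroupOf E).index : ℤ) * s + (p : ℤ) * t = 1 := by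
        have hc : IsCoprime ((U.subgroupOf E).index : ℤ) (p : ℤ) :=
          Nat.Coprime.isCoprime ((hp.out.coprime_iff_not_dvd).2 hidx).symm
        obtain ⟨s, t, hst⟩ := hc
        exact ⟨s, t, by linarith⟩
      have e : g = (g ^ (U.subgroupOf E).index) ^ s * (g ^ p) ^ t := by
        rw [← zpow_natCast g, ← zpow_natCast g p, ← zpow_mul, ← zpow_mul, ← zpow_add, hst,
          zpow_one]
      rw [e, hgp, one_zpow, mul_one]
      exact zpow_mem h1 s
    obtain ⟨w, hw, Q⟩ := ha.exists_pair hset
    have hEq := ha.factor_eq hset hw Q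
    refine (le_trans ?_ (inf_le_left : U ≤ (M ⊓ K).map θ))
    have hmem : a ∈ E ∧ w * a * w⁻¹ ∈ E := by
      rw [hE, hEq]
      exact ⟨Subgroup.mem_sup_left (Subgroup.mem_zpowers _),
        Subgroup.mem_sup_right (Subgroup.mem_zpowers _)⟩
    rw [hE, hEq]
    have m1 : a ∈ U := hroot hmem.1 ha.gen_pow
    have m2 : w * a * w⁻¹ ∈ U := hroot hmem.2 Q.rootB.gen_pow
    rw [hU, hE, hEq] at m1 m2
    exact sup_le (Subgroup.zpowers_le.2 m1) (Subgroup.zpowers_le.2 m2)
  have hJM : J ≤ M := by
    intro j hj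
    obtain ⟨m, hm, hjm⟩ := hH (Subgroup.mem_map_of_mem θ hj)
    have h1 : j * m⁻¹ ∈ K ⊓ Subgroup.centralizer (V : Set G) := by
      refine ⟨K.mul_mem (h.thompson_le hj) (K.inv_mem hm.2), ?_⟩
      rw [← ker_modelMap]
      show θ (j * m⁻¹) = 1
      rw [map_mul, map_inv, hjm, mul_inv_cancel]
    have := M.mul_mem (hCV h1) hm.1
    rwa [inv_mul_cancel_right] at this
  intro g hg
  obtain ⟨l, hl, n, hn, rfl⟩ := exists_mul_normalizer_inf_sylow S J g
  refine M.mul_mem (hJM hl) (hN ⟨?_, ?_⟩)
  · have := K.mul_mem (K.inv_mem (h.thompson_le hl)) hg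
    rwa [inv_mul_cancel_left] at this
  · have hJS : thompsonSubgroupOf p ((S : Subgroup G) ⊓ J) =
        thompsonSubgroupOf p (S : Subgroup G) :=
      thompsonSubgroupOf_eq_of_le inf_le_left
        (le_inf (thompsonSubgroupOf_le p _) (thompsonSubgroupOf_sylow_le S))
    rw [← hJS]
    exact normalizer_le_normalizer_thompsonSubgroupOf p _ hn

/-- The fixed plane and the group inducing `SL(2, p)` on it, inside `K ⊔ X`. -/
theorem exists_fixed_sl2 (h : CoprimeSetting p q K X)
    (hnf : ¬ thompsonSubgroup p G ≤ Subgroup.centralizer (omegaSpan p G : Set G)) :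
    (p = 2 ∨ p = 3) ∧ ∃ W D : Subgroup G, W ≤ K ⊓ Subgroup.centralizer (X : Set G) ∧
      D ≤ K ⊓ Subgroup.centralizer (X : Set G) ∧ IsElementaryAbelian p W ∧ Nat.card W = p ^ 2 ∧
      D ≤ Subgroup.normalizer (W : Set G) ∧
      ∃ φ : D →* SL(2, ZMod p), Function.Surjective φ ∧
        φ.ker = (Subgroup.centralizer (W : Set G)).subgroupOf D := by
  set V := omegaSpan p G with hV
  set θ := modelMap V with hθ
  set J := thompsonSubgroup p G with hJ
  have hP := h.operators
  have hset := hP.setting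
  have hH1 : J.map θ ≠ ⊥ := fun hb => hnf (by
    rwa [Subgroup.map_eq_bot_iff, ker_modelMap] at hb)
  obtain ⟨a, ha⟩ := exists_root hset hH1
  set E := rootFactor p (J.map θ) a with hE
  set W' := FFOperators.fixedPlane p (modelModule V) (J.map θ) (X.map θ) a with hW'
  set W := (W'.comap (SemidirectProduct.inl : V →* ModuleModel V)).map V.subtype with hW
  have hWV : W ≤ V := Subgroup.map_subtype_le _
  refine ⟨ha.prime_two_or_three hset, W, J ⊓ Subgroup.centralizer (X : Set G),
    le_inf (hWV.trans h.omegaSpan_le) ?_, inf_le_inf_right _ h.thompson_le,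
    isElementaryAbelian_mono h.omegaSpan_elem hWV, ?_, ?_, ?_⟩
  · rintro _ ⟨v, hv, rfl⟩ x hx
    exact (modelMap_commute_iff V x v).1 (hv.2 _ (Subgroup.mem_map_of_mem θ hx))
  · rw [hW, Subgroup.card_map_of_injective V.subtype_injective,
      ← hP.card_fixedPlane ha, ← hW',
      ← Subgroup.card_map_of_injective (f := (SemidirectProduct.inl : V →* ModuleModel V))
        SemidirectProduct.inl_injective, Subgroup.map_comap_eq_self (hP.fixedPlane_le ha)]
  · rintro k ⟨hkJ, hkX⟩
    have hkR : θ k ∈ J.map θ ⊓ Subgroup.centralizer (X.map θ : Set (ModuleModel V)) :=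
      ⟨Subgroup.mem_map_of_mem θ hkJ, by
        rintro _ ⟨x, hx, rfl⟩
        rw [← map_mul, ← map_mul, hkX x hx]⟩
    refine CoprimeAction.mem_normalizer_of_conj_mem ?_
    rintro _ ⟨v, hv, rfl⟩
    refine ⟨MulAut.conjNormal k v, ?_, MulAut.conjNormal_apply k v⟩
    show SemidirectProduct.inl (MulAut.conjNormal k v) ∈ W'
    rw [← modelMap_conj]
    exact conj_mem_of_mem_normalizer (hP.fixed_normalizes_fixedPlane ha hkR) hv
  · set D := J ⊓ Subgroup.centralizer (X : Set G) with hD
    have hkR : ∀ k : D, θ k ∈ J.map θ ⊓ Subgroup.centralizer (X.map θ : Set (ModuleModel V)) :=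
      fun k => ⟨Subgroup.mem_map_of_mem θ k.2.1, by
        rintro _ ⟨x, hx, rfl⟩
        rw [← map_mul, ← map_mul, k.2.2 x hx]⟩
    have hex : ∀ k : D, ∃ y : E, (y : ModuleModel V)⁻¹ * θ k ∈
        otherFactors p (modelModule V) (J.map θ) a := by
      intro k
      have hn : E ≤ Subgroup.normalizer
          (otherFactors p (modelModule V) (J.map θ) a : Set (ModuleModel V)) :=
        (Subgroup.le_centralizer_iff.1 ((otherFactors_le hset ha).trans
          (inf_le_left.trans inf_le_right))).trans (Subgroup.centralizer_le_normalizer _)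
      have hx := le_sup_otherFactors (a := a) hset (hkR k).1
      rw [← SetLike.mem_coe, Subgroup.coe_mul_of_left_le_normalizer_right _ _ hn] at hx
      obtain ⟨y, hy, r, hr, he⟩ := hx
      exact ⟨⟨y, hy⟩, by rw [← he]; simpa using hr⟩
    choose f hf using hex
    have huniq : ∀ (k : D) (y : E), (y : ModuleModel V)⁻¹ * θ k ∈
        otherFactors p (modelModule V) (J.map θ) a → f k = y := by
      intro k y hy
      have h1 := mul_mem (hf k) (inv_mem hy)
      refine Subtype.ext (inv_mul_eq_one.1 (Subgroup.mem_bot.1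
        (show ((f k : ModuleModel V))⁻¹ * (y : ModuleModel V) ∈ (⊥ : Subgroup _) from ?_)))
      rw [← (ha.module_data hset).2.2.2]
      refine ⟨E.mul_mem (E.inv_mem (f k).2) y.2, (otherFactors_le hset ha ?_).2⟩
      have e : ((f k : ModuleModel V))⁻¹ * (y : ModuleModel V) =
          ((f k : ModuleModel V))⁻¹ * θ k * ((y : ModuleModel V)⁻¹ * θ k)⁻¹ := by group
      rw [e]
      exact h1
    have hmul : ∀ k k' : D, f (k * k') = f k * f k' := by
      intro k k'
      refine huniq _ _ ?_
      have hc : Commute (f k' : ModuleModel V) ((f k : ModuleModel V)⁻¹ * θ k) :=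
        (otherFactors_le hset ha (hf k)).1.2 _ (f k').2
      have e : ((f k * f k' : E) : ModuleModel V)⁻¹ * θ (k * k' : D) =
          ((f k : ModuleModel V)⁻¹ * θ k) * ((f k' : ModuleModel V)⁻¹ * θ k') := by
        rw [Subgroup.coe_mul, Subgroup.coe_mul, map_mul, ← mul_assoc ((f k : ModuleModel V)⁻¹ * θ k),
          ← hc.inv_left.eq]
        group
      rw [e]
      exact mul_mem (hf k) (hf k')
    obtain ⟨e⟩ := ha.nonempty_mulEquiv hset
    refine ⟨e.toMonoidHom.comp (MonoidHom.mk' f hmul), fun m => ?_, ?_⟩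
    · obtain ⟨c, hc, hcy⟩ := hP.exists_fixed_factor ha (e.symm m).2
      obtain ⟨k, hk, rfl⟩ := h.exists_lift hc
      refine ⟨⟨k, hk⟩, ?_⟩
      show e (f ⟨k, hk⟩) = m
      rw [huniq ⟨k, hk⟩ (e.symm m) hcy, e.apply_symm_apply]
    · ext k
      rw [MonoidHom.mem_ker, Subgroup.mem_subgroupOf]
      show e (f k) = 1 ↔ _
      rw [map_eq_one_iff e e.injective, Subtype.ext_iff, Subgroup.coe_one,
        ← hP.centralizes_fixedPlane_iff ha (hkR k) (f k).2 (hf k)]
      constructor
      · rintro hk _ ⟨v, hv, rfl⟩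
        exact ((modelMap_commute_iff V k v).1 (hk _ hv).symm).symm
      · intro hk u hu
        obtain ⟨v, rfl⟩ := hP.fixedPlane_le ha hu
        exact ((modelMap_commute_iff V k v).2 (hk v ⟨v, hu, rfl⟩).symm).symm

end CoprimeSetting

end CfsgLib.ThompsonJ
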