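import Cfsg.Agent.Lib.ThompsonJ.FF.Decomposition

/-!
A `q`-group of operators on the structure of failure of factorization, `q` prime to `|H|`: fixed
points project onto every factor (`CfsgLib.ThompsonJ`).
-/

set_option autoImplicit false
set_option linter.unusedSectionVars false
set_option linter.style.haveILetI false

open scoped commutatorElement IsMulCommutative

namespace CfsgLib.ThompsonJ

open Cfsg

variable {G : Type*} [Group G] [Finite G]

/-- The product of a pairwise commuting orbit is a fixed element. -/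
theorem exists_fixed_of_orbit {R N : Subgroup G} {y : G}
    (hc : ∀ x ∈ R, ∀ x' ∈ R, Commute (x * y * x⁻¹) (x' * y * x'⁻¹))
    (hN : ∀ x ∈ R, x * y * x⁻¹ ≠ y → x * y * x⁻¹ ∈ N) :
    ∃ c ∈ Subgroup.closure {z | ∃ x ∈ R, x * y * x⁻¹ = z},
      c ∈ Subgroup.centralizer (R : Set G) ∧ y⁻¹ * c ∈ N := by
  classical
  set O : Set G := {z | ∃ x ∈ R, x * y * x⁻¹ = z} with hO
  set L := Subgroup.closure O with hL
  haveI : IsMulCommutative L := Subgroup.isMulCommutative_closure <| by
    rintro _ ⟨x, hx, rfl⟩ _ ⟨x', hx', rfl⟩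
    exact hc x hx x' hx'
  haveI : Fintype O := Fintype.ofFinite O
  let f : O → L := fun z => ⟨z, Subgroup.subset_closure z.2⟩
  refine ⟨((∏ z, f z : L) : G), SetLike.coe_mem _, ?_, ?_⟩
  · intro g hg
    have hmem : ∀ z : O, g * (z : G) * g⁻¹ ∈ O := by
      rintro ⟨_, x, hx, rfl⟩
      exact ⟨g * x, R.mul_mem hg hx, by group⟩
    have hperm : Function.Bijective (fun z : O => (⟨g * (z : G) * g⁻¹, hmem z⟩ : O)) :=
      Finite.injective_iff_bijective.1 fun a b hab => Subtype.ext (by simpa using hab)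
    have hgn : ∀ u ∈ L, g * u * g⁻¹ ∈ L := by
      intro u hu
      have hle : L ≤ L.comap (MulAut.conj g).toMonoidHom := (Subgroup.closure_le _).2 fun z hz =>
        Subgroup.subset_closure (hmem ⟨z, hz⟩)
      exact hle hu
    let c : L →* L := MonoidHom.mk' (fun u => ⟨g * u * g⁻¹, hgn u u.2⟩) fun u v =>
      Subtype.ext (by simp [mul_assoc])
    have h1 : c (∏ z, f z) = ∏ z, f z := by
      rw [map_prod]
      exact Fintype.prod_bijective _ hperm _ _ fun z => rfl
    exact mul_inv_eq_iff_eq_mul.1 (congrArg Subtype.val h1)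
  · have hy : y ∈ O := ⟨1, R.one_mem, by group⟩
    rw [← Finset.mul_prod_erase Finset.univ f (Finset.mem_univ ⟨y, hy⟩), Subgroup.coe_mul,
      show ((f ⟨y, hy⟩ : L) : G) = y from rfl, inv_mul_cancel_left]
    refine Finset.prod_induction f (fun u => (u : G) ∈ N) (fun u v => N.mul_mem) N.one_mem ?_
    rintro ⟨_, x, hx, rfl⟩ hz
    exact hN x hx fun he => Finset.ne_of_mem_erase hz (Subtype.ext he)

variable {p q : ℕ} [hp : Fact p.Prime] [hq : Fact q.Prime] {V H R : Subgroup G} {a : G}

/-- A `q`-group of operators on an `FFSetting`. -/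
structure FFOperators (p q : ℕ) (V H R : Subgroup G) : Prop where
  setting : FFSetting p V H
  le_normalizer_module : R ≤ Subgroup.normalizer (V : Set G)
  le_normalizer_group : R ≤ Subgroup.normalizer (H : Set G)
  isPGroup : IsPGroup q R
  not_dvd : ¬ q ∣ Nat.card H

theorem isRootFactor_map_conj (h : FFSetting p V H) {g : G}
    (hgV : g ∈ Subgroup.normalizer (V : Set G)) (hgH : g ∈ Subgroup.normalizer (H : Set G))
    {E : Subgroup G} (hE : IsRootFactor p V H E) :
    IsRootFactor p V H (E.map (MulAut.conj g).toMonoidHom) := by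
  obtain ⟨a, ha, rfl⟩ := hE
  refine ⟨g * a * g⁻¹, ?_, ?_⟩
  · rw [← map_conj_zpowers]
    exact ⟨(Subgroup.map_mono ha.le).trans (Subnormal.mem_normalizer_iff_map_conj.1 hgH).le,
      isBestOffenderOn_map_conj hgV ha.offender,
      (Subgroup.card_map_of_injective (MulAut.conj g).injective).trans ha.card⟩
  · have hQ : (coreOf p H).map (MulAut.conj g).toMonoidHom = coreOf p H :=
      Subnormal.mem_normalizer_iff_map_conj.1
        (Cores.normalizer_le_normalizer_map_subtype H _ hgH)
    rw [rootFactor, Subgroup.map_sup, Subgroup.map_commutator, hQ, map_conj_zpowers]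

namespace FFOperators

/-- An operator normalizing a factor centralizes it and its plane. -/
theorem centralizes_of_normalizes (P : FFOperators p q V H R)
    (ha : IsRoot p V H (Subgroup.zpowers a)) {x : G} (hx : x ∈ R)
    (hxE : x ∈ Subgroup.normalizer (rootFactor p H a : Set G)) :
    x ∈ Subgroup.centralizer (factorPlane p V H a : Set G) ∧
      x ∈ Subgroup.centralizer (rootFactor p H a : Set G) := by
  set W := factorPlane p V H a with hW
  have h := P.setting
  have hxW : x ∈ Subgroup.normalizer (W : Set G) :=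
    inf_normalizer_le_normalizer_commutator _ _ ⟨P.le_normalizer_module hx, hxE⟩
  have hWc := (ha.module_data h).1
  have hq6 : ¬ q ∣ p * (p ^ 2 - 1) := fun hd =>
    P.not_dvd ((ha.card_factor h).symm ▸ hd |>.trans (Subgroup.card_dvd_of_le (ha.factor_le h)))
  -- `x` centralizes the plane
  have hfixW : x ∈ Subgroup.centralizer (W : Set G) := by
    suffices key : ∀ y : G, y ∈ Subgroup.normalizer (W : Set G) → ∀ w ∈ W,
        Commute (y ^ q) w → Commute y w by
      obtain ⟨k, hk⟩ := P.isPGroup ⟨x, hx⟩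
      have hk' : x ^ q ^ k = 1 := congrArg Subtype.val hk
      intro w hw
      have : ∀ j, Commute (x ^ q ^ j) w → Commute x w := by
        intro j
        induction j with
        | zero => simp
        | succ j ih =>
          intro hj
          refine ih (key _ (pow_mem hxW _) w hw ?_)
          rwa [← pow_mul, ← pow_succ]
      exact (this k (hk' ▸ Commute.one_left w)).symm.eq
    intro y hy w hw hyq
    by_contra hne
    have hw1 : w ≠ 1 := fun h1 => hne (h1 ▸ Commute.one_right y)
    have hfix : ∀ i : ℤ, Commute (y ^ i) w → (q : ℤ) ∣ i := by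
      intro i hi
      by_contra hd
      obtain ⟨s, t, hst⟩ := (Prime.coprime_iff_not_dvd (Nat.prime_iff_prime_int.1 hq.out)).2 hd
      refine hne ?_
      have e : y = (y ^ q) ^ s * (y ^ i) ^ t := by
        rw [← zpow_natCast, ← zpow_mul, ← zpow_mul, ← zpow_add,
          show (q : ℤ) * s + i * t = 1 by linarith, zpow_one]
      rw [e]
      exact (hyq.zpow_left s).mul_left (hi.zpow_left t)
    have hmemW : ∀ (i : ℤ) (u : G), u ∈ W → y ^ i * u * (y ^ i)⁻¹ ∈ W := fun i u hu =>
      conj_mem_of_mem_normalizer (zpow_mem hy i) hu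
    have horb : ∀ i j : Fin q,
        y ^ (i : ℤ) * w * (y ^ (i : ℤ))⁻¹ = y ^ (j : ℤ) * w * (y ^ (j : ℤ))⁻¹ → i = j := by
      intro i j hij
      have h1 : Commute (y ^ ((i : ℤ) - (j : ℤ))) w := by
        refine mul_inv_eq_iff_eq_mul.1 ?_
        calc y ^ ((i : ℤ) - (j : ℤ)) * w * (y ^ ((i : ℤ) - (j : ℤ)))⁻¹
            = y ^ (-(j : ℤ)) * (y ^ (i : ℤ) * w * (y ^ (i : ℤ))⁻¹) * (y ^ (-(j : ℤ)))⁻¹ := by group
          _ = w := by rw [hij]; group
      have h2 := hfix _ h1
      have h3 := Int.eq_zero_of_abs_lt_dvd h2 (abs_sub_lt_iff.2 ⟨by omega, by omega⟩)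
      exact Fin.ext (by omega)
    rcases ha.prime_two_or_three h with rfl | rfl
    · -- `|W| = 4`
      let f : Option (Fin q) → W := fun o =>
        o.elim 1 fun i => ⟨y ^ (i : ℤ) * w * (y ^ (i : ℤ))⁻¹, hmemW _ _ hw⟩
      have hf : Function.Injective f := by
        rintro (_ | i) (_ | j) hij
        · rfl
        · exact absurd (congrArg Subtype.val hij).symm (by simpa [f] using hw1)
        · exact absurd (congrArg Subtype.val hij) (by simpa [f] using hw1)
        · exact congrArg some (horb i j (congrArg Subtype.val hij))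
      have h4 := Nat.card_le_card_of_injective f hf
      rw [hWc, Nat.card_eq_fintype_card (α := Option (Fin q)), Fintype.card_option,
        Fintype.card_fin] at h4
      norm_num at h4
      have hq3 : q ≤ 3 := by omega
      have := hq.out.two_le
      interval_cases q <;> norm_num at hq6
    · let f : Option (Fin q × Bool) → W := fun o =>
        o.elim 1 fun ib => ⟨y ^ (ib.1 : ℤ) * (if ib.2 then w else w⁻¹) * (y ^ (ib.1 : ℤ))⁻¹,
          hmemW _ _ (by split_ifs <;> simp [hw])⟩
      have hq2 : q ≠ 2 := by rintro rfl; norm_num at hq6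
      have hno : ∀ i j : Fin q,
          y ^ (i : ℤ) * w * (y ^ (i : ℤ))⁻¹ = y ^ (j : ℤ) * w⁻¹ * (y ^ (j : ℤ))⁻¹ → False := by
        intro i j hij
        set m := (i : ℤ) - (j : ℤ) with hm
        have h1 : y ^ m * w * (y ^ m)⁻¹ = w⁻¹ := by
          rw [hm]
          calc y ^ ((i : ℤ) - (j : ℤ)) * w * (y ^ ((i : ℤ) - (j : ℤ)))⁻¹
              = y ^ (-(j : ℤ)) * (y ^ (i : ℤ) * w * (y ^ (i : ℤ))⁻¹) * (y ^ (-(j : ℤ)))⁻¹ := by
                group
            _ = w⁻¹ := by rw [hij]; group
        have h2 : Commute (y ^ (2 * m)) w := by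
          refine mul_inv_eq_iff_eq_mul.1 ?_
          calc y ^ (2 * m) * w * (y ^ (2 * m))⁻¹
              = y ^ m * (y ^ m * w * (y ^ m)⁻¹) * (y ^ m)⁻¹ := by group
            _ = (y ^ m * w * (y ^ m)⁻¹)⁻¹ := by
              conv_lhs => rw [h1]
              group
            _ = w := by rw [h1, inv_inv]
        rcases Int.Prime.dvd_mul' hq.out (hfix _ h2) with h3 | h3
        · exact hq2 ((Nat.prime_dvd_prime_iff_eq hq.out Nat.prime_two).1
            (Int.natCast_dvd_natCast.1 h3))
        · have h4 : m = 0 := Int.eq_zero_of_abs_lt_dvd h3 (abs_sub_lt_iff.2 ⟨by omega, by omega⟩)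
          rw [h4, zpow_zero, one_mul, inv_one, mul_one, eq_inv_iff_mul_eq_one] at h1
          have h3w : w ^ 3 = 1 := h.elem.2 w (ha.plane_le h hw)
          refine hw1 ?_
          rwa [pow_succ, pow_two, h1, one_mul] at h3w
      have hf : Function.Injective f := by
        rintro (_ | ⟨i, b⟩) (_ | ⟨j, c⟩) hij
        · rfl
        · exact absurd (congrArg Subtype.val hij).symm (by cases c <;> simpa [f] using hw1)
        · exact absurd (congrArg Subtype.val hij) (by cases b <;> simpa [f] using hw1)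
        · have h1 := congrArg Subtype.val hij
          simp only [f, Option.elim_some] at h1
          cases b <;> cases c <;> simp only [Bool.false_eq_true, if_false, if_true] at h1
          · rw [horb i j ?_]
            simpa [mul_assoc] using congrArg Inv.inv h1
          · exact (hno j i h1.symm).elim
          · exact (hno i j h1).elim
          · rw [horb i j h1]
      have h4 := Nat.card_le_card_of_injective f hf
      rw [hWc, Nat.card_eq_fintype_card (α := Option (Fin q × Bool)), Fintype.card_option,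
        Fintype.card_prod, Fintype.card_fin, Fintype.card_bool] at h4
      norm_num at h4
      have hq4 : q ≤ 4 := by omega
      have := hq.out.two_le
      interval_cases q
      · exact hq2 rfl
      · norm_num at hq6
      · exact absurd hq.out (by norm_num)
  refine ⟨hfixW, fun e he => ?_⟩
  have hxe : x * e * x⁻¹ ∈ rootFactor p H a := conj_mem_of_mem_normalizer hxE he
  have hmem : (x * e * x⁻¹)⁻¹ * e ∈ rootFactor p H a := mul_mem (inv_mem hxe) he
  have hcent : (x * e * x⁻¹)⁻¹ * e ∈ Subgroup.centralizer (W : Set G) := by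
    intro w hw
    have hew : e * w * e⁻¹ ∈ W :=
      conj_mem_of_mem_normalizer (Subgroup.normalizer_commutator_ge_right V _ he) hw
    have hcx : ∀ u ∈ W, Commute x u := fun u hu => (hfixW u hu).symm
    symm
    refine mul_inv_eq_iff_eq_mul.1 ?_
    calc (x * e * x⁻¹)⁻¹ * e * w * ((x * e * x⁻¹)⁻¹ * e)⁻¹
        = x * e⁻¹ * (x⁻¹ * (e * w * e⁻¹) * x) * e * x⁻¹ := by group
      _ = x * (e⁻¹ * (e * w * e⁻¹) * e) * x⁻¹ := by
          rw [(hcx _ hew).inv_left.eq]; group
      _ = x * w * x⁻¹ := by group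
      _ = w := by rw [(hcx w hw).eq, mul_inv_cancel_right]
  have h1 : (x * e * x⁻¹)⁻¹ * e = 1 :=
    Subgroup.mem_bot.1 ((ha.module_data h).2.2.2 ▸ ⟨hmem, hcent⟩)
  rw [inv_mul_eq_one] at h1
  exact (mul_inv_eq_iff_eq_mul.1 h1).symm

theorem translate_data (P : FFOperators p q V H R) (ha : IsRoot p V H (Subgroup.zpowers a))
    {x : G} (hx : x ∈ R) :
    IsRootFactor p V H ((rootFactor p H a).map (MulAut.conj x).toMonoidHom) ∧
      ((rootFactor p H a).map (MulAut.conj x).toMonoidHom = rootFactor p H a →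
        (∀ w ∈ factorPlane p V H a, x * w * x⁻¹ = w) ∧
        ∀ e ∈ rootFactor p H a, x * e * x⁻¹ = e) := by
  refine ⟨isRootFactor_map_conj P.setting (P.le_normalizer_module hx) (P.le_normalizer_group hx)
    ⟨a, ha, rfl⟩, fun he => ?_⟩
  obtain ⟨h1, h2⟩ := P.centralizes_of_normalizes ha hx
    (Subnormal.mem_normalizer_iff_map_conj.2 he)
  exact ⟨fun w hw => by rw [← h1 w hw, mul_inv_cancel_right],
    fun e he' => by rw [← h2 e he', mul_inv_cancel_right]⟩

/-- Fixed points of the operators project onto every factor. -/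
theorem exists_fixed_factor (P : FFOperators p q V H R) (ha : IsRoot p V H (Subgroup.zpowers a))
    {y : G} (hy : y ∈ rootFactor p H a) :
    ∃ c ∈ H ⊓ Subgroup.centralizer (R : Set G), y⁻¹ * c ∈ otherFactors p V H a := by
  have h := P.setting
  have hother : ∀ x ∈ R, x * y * x⁻¹ ≠ y → x * y * x⁻¹ ∈ otherFactors p V H a := by
    intro x hx hne
    obtain ⟨hF, hfix⟩ := P.translate_data ha hx
    exact Subgroup.mem_iSup_of_mem (⟨_, hF, fun he => hne ((hfix he).2 y hy)⟩ :
      {E : Subgroup G // IsRootFactor p V H E ∧ E ≠ rootFactor p H a})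
      (⟨y, hy, rfl⟩ : x * y * x⁻¹ ∈ (rootFactor p H a).map (MulAut.conj x).toMonoidHom)
  have hbase : ∀ x ∈ R, Commute y (x * y * x⁻¹) := by
    intro x hx
    by_cases hne : x * y * x⁻¹ = y
    · rw [hne]
    · exact ((otherFactors_le h ha (hother x hx hne)).1.2 y hy)
  obtain ⟨c, hc, hcR, hcN⟩ := exists_fixed_of_orbit (N := otherFactors p V H a)
    (fun x hx x' hx' => by
      have h1 := (hbase (x⁻¹ * x') (mul_mem (inv_mem hx) hx')).map (MulAut.conj x).toMonoidHom
      simpa [mul_assoc] using h1) hother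
  refine ⟨c, ⟨(Subgroup.closure_le _).2 ?_ hc, hcR⟩, hcN⟩
  rintro _ ⟨x, hx, rfl⟩
  exact conj_mem_of_mem_normalizer (P.le_normalizer_group hx) (ha.factor_le h hy)

/-- The fixed plane of the orbit of a factor. -/
abbrev fixedPlane (p : ℕ) (V H R : Subgroup G) (a : G) : Subgroup G :=
  (⨆ x : R, (factorPlane p V H a).map (MulAut.conj (x : G)).toMonoidHom) ⊓
    Subgroup.centralizer (R : Set G)

theorem fixedPlane_le (P : FFOperators p q V H R) (ha : IsRoot p V H (Subgroup.zpowers a)) :
    fixedPlane p V H R a ≤ V :=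
  inf_le_left.trans (iSup_le fun x => (Subgroup.map_mono (ha.plane_le P.setting)).trans
    (Subnormal.mem_normalizer_iff_map_conj.1 (P.le_normalizer_module x.2)).le)

theorem translate_plane (P : FFOperators p q V H R) {x : G} (hx : x ∈ R) :
    (factorPlane p V H a).map (MulAut.conj x).toMonoidHom =
      ⁅V, (rootFactor p H a).map (MulAut.conj x).toMonoidHom⁆ :=
  (commutator_map_conj (P.le_normalizer_module hx) _).symm

theorem exists_fixed_plane (P : FFOperators p q V H R) (ha : IsRoot p V H (Subgroup.zpowers a))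
    {w : G} (hw : w ∈ factorPlane p V H a) :
    ∃ u ∈ fixedPlane p V H R a, w⁻¹ * u ∈ factorFixed p V H a := by
  have h := P.setting
  have hV : ∀ x ∈ R, x * w * x⁻¹ ∈ V := fun x hx =>
    conj_mem_of_mem_normalizer (P.le_normalizer_module hx) (ha.plane_le h hw)
  obtain ⟨c, hc, hcR, hcN⟩ := exists_fixed_of_orbit (N := factorFixed p V H a)
    (fun x hx x' hx' => isElementaryAbelian_comm h.elem (hV x hx) (hV x' hx'))
    (fun x hx hne => by
      obtain ⟨hF, hfix⟩ := P.translate_data ha hx
      refine plane_le_fixed_of_ne h ha hF (fun he => hne ((hfix he).1 w hw)) ?_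
      rw [← P.translate_plane hx]
      exact Subgroup.mem_map_of_mem _ hw)
  refine ⟨c, ⟨(Subgroup.closure_le _).2 ?_ hc, hcR⟩, hcN⟩
  rintro _ ⟨x, hx, rfl⟩
  exact le_iSup (fun x : R => (factorPlane p V H a).map (MulAut.conj (x : G)).toMonoidHom) ⟨x, hx⟩
    (Subgroup.mem_map_of_mem _ hw)

theorem fixedPlane_inf_fixed (P : FFOperators p q V H R)
    (ha : IsRoot p V H (Subgroup.zpowers a)) :
    fixedPlane p V H R a ⊓ factorFixed p V H a = ⊥ := by
  have h := P.setting
  rw [Subgroup.eq_bot_iff_forall]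
  rintro u ⟨hu, huE⟩
  classical
  haveI : Fintype {E : Subgroup G // IsRootFactor p V H E} := Fintype.ofFinite _
  refine (exists_decomposition_finset h Finset.univ).2 u ?_ fun F _ => ?_
  · refine (iSup_le fun x => ?_ :
      (⨆ x : R, (factorPlane p V H a).map (MulAut.conj (x : G)).toMonoidHom) ≤ _) hu.1
    rw [P.translate_plane x.2]
    exact le_iSup₂_of_le ⟨_, (P.translate_data ha x.2).1⟩ (Finset.mem_univ _) le_rfl
  · by_cases horb : ∃ x ∈ R, (rootFactor p H a).map (MulAut.conj x).toMonoidHom = F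
    · obtain ⟨x, hx, hF⟩ := horb
      rw [← hF]
      rintro _ ⟨e, he, rfl⟩
      show x * e * x⁻¹ * u = u * (x * e * x⁻¹)
      have h1 : Commute x u := hu.2 x hx
      have h2 : Commute e u := huE.2 e he
      exact ((h1.mul_left h2).mul_left h1.inv_left).eq
    · push Not at horb
      refine (iSup_le fun x => ?_ :
        (⨆ x : R, (factorPlane p V H a).map (MulAut.conj (x : G)).toMonoidHom) ≤ _) hu.1
      obtain ⟨b, hb, hFb⟩ := F.2
      rw [P.translate_plane x.2, hFb]
      refine (plane_le_fixed_of_ne h hb (P.translate_data ha x.2).1 fun he => ?_).trans inf_le_right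
      exact horb x x.2 (he.trans hFb.symm)

theorem fixed_normalizes_fixedPlane (P : FFOperators p q V H R)
    (ha : IsRoot p V H (Subgroup.zpowers a)) :
    H ⊓ Subgroup.centralizer (R : Set G) ≤
      Subgroup.normalizer (fixedPlane p V H R a : Set G) := by
  rintro c ⟨hcH, hcR⟩
  have h := P.setting
  refine CoprimeAction.mem_normalizer_of_conj_mem fun u hu => ⟨?_, ?_⟩
  · have hle : (⨆ x : R, (factorPlane p V H a).map (MulAut.conj (x : G)).toMonoidHom) ≤
        (⨆ x : R, (factorPlane p V H a).map (MulAut.conj (x : G)).toMonoidHom).comap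
          (MulAut.conj c).toMonoidHom := by
      refine iSup_le fun x z hz => ?_
      refine le_iSup (fun x : R => (factorPlane p V H a).map (MulAut.conj (x : G)).toMonoidHom) x ?_
      rw [P.translate_plane x.2] at hz ⊢
      obtain ⟨b, hb, hFb⟩ := (P.translate_data ha x.2).1
      rw [hFb] at hz ⊢
      exact conj_mem_of_mem_normalizer (inf_normalizer_le_normalizer_commutator V _
        ⟨h.le_normalizer hcH, le_normalizer_factor h hb hcH⟩) hz
    exact hle hu.1
  · intro x hx
    have h1 : Commute x c := hcR x hx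
    have h2 : Commute x u := hu.2 x hx
    exact ((h1.mul_right h2).mul_right h1.inv_right).eq

theorem card_fixedPlane (P : FFOperators p q V H R) (ha : IsRoot p V H (Subgroup.zpowers a)) :
    Nat.card ↥(fixedPlane p V H R a) = p ^ 2 := by
  have h := P.setting
  obtain ⟨hWc, hWC, hWV, -⟩ := ha.module_data h
  have hn : ∀ U : Subgroup G, U ≤ V → U ≤ Subgroup.normalizer (factorFixed p V H a : Set G) :=
    fun U hU => RootPair.le_normalizer_of_le h hU inf_le_left
  have h1 := card_sup_mul_card_inf (factorPlane p V H a) (factorFixed p V H a)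
    (hn _ (ha.plane_le h))
  have h2 := card_sup_mul_card_inf (fixedPlane p V H R a) (factorFixed p V H a)
    (hn _ (P.fixedPlane_le ha))
  have hsup : fixedPlane p V H R a ⊔ factorFixed p V H a = V := by
    refine le_antisymm (sup_le (P.fixedPlane_le ha) inf_le_left) ?_
    conv_lhs => rw [← hWV]
    refine sup_le (fun w hw => ?_) le_sup_right
    obtain ⟨u, hu, hc⟩ := P.exists_fixed_plane ha hw
    have e : w = u * (w⁻¹ * u)⁻¹ := by group
    rw [e]
    exact mul_mem (Subgroup.mem_sup_left hu) (inv_mem (Subgroup.mem_sup_right hc))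
  rw [hWV, hWC, Subgroup.card_bot, mul_one] at h1
  rw [hsup, P.fixedPlane_inf_fixed ha, Subgroup.card_bot, mul_one, h1] at h2
  rw [← Nat.eq_of_mul_eq_mul_right Nat.card_pos h2, hWc]

/-- On the fixed plane a fixed element acts as its component in the factor. -/
theorem centralizes_fixedPlane_iff (P : FFOperators p q V H R)
    (ha : IsRoot p V H (Subgroup.zpowers a)) {c y : G}
    (hc : c ∈ H ⊓ Subgroup.centralizer (R : Set G)) (hy : y ∈ rootFactor p H a)
    (hcy : y⁻¹ * c ∈ otherFactors p V H a) :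
    c ∈ Subgroup.centralizer (fixedPlane p V H R a : Set G) ↔ y = 1 := by
  have h := P.setting
  set r := y⁻¹ * c with hr
  have hc' : c = y * r := by rw [hr]; group
  obtain ⟨⟨hrH, hrE⟩, hrW⟩ := otherFactors_le h ha hcy
  constructor
  · intro hcent
    refine Subgroup.mem_bot.1 ((ha.module_data h).2.2.2 ▸ ⟨hy, fun w hw => ?_⟩)
    obtain ⟨u, hu, hwu⟩ := P.exists_fixed_plane ha hw
    -- compare the two components of `c * u * c⁻¹ = u`
    have huc : c * u * c⁻¹ = u := by rw [← hcent u hu, mul_inv_cancel_right]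
    have hrw : r * w * r⁻¹ = w := by rw [← hrW w hw, mul_inv_cancel_right]
    have hyw : y * w * y⁻¹ ∈ factorPlane p V H a :=
      conj_mem_of_mem_normalizer (Subgroup.normalizer_commutator_ge_right V _ hy) hw
    have hd : c * (w⁻¹ * u) * c⁻¹ ∈ factorFixed p V H a :=
      conj_mem_of_mem_normalizer
        (mem_normalizer_fixed (h.le_normalizer hc.1) (le_normalizer_factor h ha hc.1)) hwu
    have h1 : w⁻¹ * (y * w * y⁻¹) = (w⁻¹ * u) * (c * (w⁻¹ * u) * c⁻¹)⁻¹ := by
      calc w⁻¹ * (y * w * y⁻¹) = w⁻¹ * (y * (r * w * r⁻¹) * y⁻¹) := by rw [hrw]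
        _ = w⁻¹ * (c * u * c⁻¹) * (c * (w⁻¹ * u) * c⁻¹)⁻¹ := by rw [hc']; group
        _ = (w⁻¹ * u) * (c * (w⁻¹ * u) * c⁻¹)⁻¹ := by rw [huc]
    have hm1 : w⁻¹ * (y * w * y⁻¹) ∈ factorPlane p V H a := mul_mem (inv_mem hw) hyw
    have hm2 : w⁻¹ * (y * w * y⁻¹) ∈ factorFixed p V H a := h1 ▸ mul_mem hwu (inv_mem hd)
    have h2 : w⁻¹ * (y * w * y⁻¹) = 1 :=
      Subgroup.mem_bot.1 ((ha.module_data h).2.1 ▸ ⟨hm1, hm2⟩)
    exact (mul_inv_eq_iff_eq_mul.1 (inv_mul_eq_one.1 h2).symm).symm
  · intro hy1 u hu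
    rw [hc', hy1, one_mul]
    have hrn : r ∈ Subgroup.normalizer (factorFixed p V H a : Set G) :=
      mem_normalizer_fixed (h.le_normalizer hrH) (le_normalizer_factor h ha hrH)
    obtain ⟨w, hw, d, hd, hwd⟩ := ha.exists_mul_of_mem h (P.fixedPlane_le ha hu)
    have hcu : c * u * c⁻¹ ∈ fixedPlane p V H R a :=
      conj_mem_of_mem_normalizer (P.fixed_normalizes_fixedPlane ha hc) hu
    rw [hc', hy1, one_mul] at hcu
    have hd' : r * d * r⁻¹ ∈ factorFixed p V H a := conj_mem_of_mem_normalizer hrn hd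
    have hrw : r * w * r⁻¹ = w := by rw [← hrW w hw, mul_inv_cancel_right]
    have hmem : u⁻¹ * (r * u * r⁻¹) ∈ factorFixed p V H a := by
      rw [← hwd]
      have e : (w * d)⁻¹ * (r * (w * d) * r⁻¹) = d⁻¹ * (r * d * r⁻¹) := by
        calc (w * d)⁻¹ * (r * (w * d) * r⁻¹)
            = d⁻¹ * w⁻¹ * (r * w * r⁻¹) * (r * d * r⁻¹) := by group
          _ = d⁻¹ * (r * d * r⁻¹) := by rw [hrw]; group
      rw [e]
      exact mul_mem (inv_mem hd) hd'
    have hm1 : u⁻¹ * (r * u * r⁻¹) ∈ fixedPlane p V H R a := mul_mem (inv_mem hu) hcu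
    have h1 : u⁻¹ * (r * u * r⁻¹) = 1 :=
      Subgroup.mem_bot.1 (P.fixedPlane_inf_fixed ha ▸ ⟨hm1, hmem⟩)
    exact (mul_inv_eq_iff_eq_mul.1 (inv_mul_eq_one.1 h1).symm).symm

end FFOperators

end CfsgLib.ThompsonJ
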