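import Cfsg.Agent.Lib.ThompsonJ.FF.Offenders

/-!
Two roots congruent modulo the `p'`-core: the plane they span and its complement
(`CfsgLib.ThompsonJ`).
-/

set_option autoImplicit false
set_option linter.unusedSectionVars false

open scoped commutatorElement

namespace CfsgLib.ThompsonJ

open Cfsg

variable {G : Type*} [Group G] {p : ℕ} {V H : Subgroup G}

theorem map_conj_fixed {g : G} (hg : g ∈ Subgroup.normalizer (V : Set G)) (A : Subgroup G) :
    (V ⊓ Subgroup.centralizer (A : Set G)).map (MulAut.conj g).toMonoidHom =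
      V ⊓ Subgroup.centralizer ((A.map (MulAut.conj g).toMonoidHom : Subgroup G) : Set G) := by
  set c := (MulAut.conj g).toMonoidHom with hc
  have hV : V.map c = V := Subnormal.mem_normalizer_iff_map_conj.1 hg
  have hinj : Function.Injective c := (MulAut.conj g).injective
  rw [Subgroup.map_inf_eq _ _ _ hinj, hV]
  congr 1
  refine le_antisymm ?_ fun y hy => ?_
  · rintro _ ⟨x, hx, rfl⟩ _ ⟨a, ha, rfl⟩
    rw [← map_mul, ← map_mul, hx a ha]
  · obtain ⟨x, rfl⟩ := (MulAut.conj g).surjective y
    refine ⟨x, fun a ha => hinj ?_, rfl⟩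
    rw [map_mul, map_mul]
    exact hy _ (Subgroup.mem_map_of_mem c ha)

theorem isBestOffenderOn_map_conj {g : G} (hg : g ∈ Subgroup.normalizer (V : Set G))
    {A : Subgroup G} (hA : IsBestOffenderOn p V A) :
    IsBestOffenderOn p V (A.map (MulAut.conj g).toMonoidHom) := by
  set c := (MulAut.conj g).toMonoidHom with hc
  have hV : V.map c = V := Subnormal.mem_normalizer_iff_map_conj.1 hg
  have hinj : Function.Injective c := (MulAut.conj g).injective
  have hCV : ∀ x ∈ Subgroup.centralizer (V : Set G), c x ∈ Subgroup.centralizer (V : Set G) := by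
    intro x hx v hv
    obtain ⟨w, hw, rfl⟩ := (hV.ge hv : v ∈ V.map c)
    rw [← map_mul, ← map_mul, hx w hw]
  refine ⟨fun B hB => ?_, ?_, ?_⟩
  · have hB' : (B.comap c).map c = B :=
      Subgroup.map_comap_eq_self_of_surjective (MulAut.conj g).surjective B
    have hle : B.comap c ≤ A := fun x hx => by
      obtain ⟨y, hy, he⟩ := hB hx
      exact hinj he ▸ hy
    have h1 := hA.1 _ hle
    rw [← hB', ← map_conj_fixed hg, ← map_conj_fixed hg, Subgroup.card_map_of_injective hinj,
      Subgroup.card_map_of_injective hinj, Subgroup.card_map_of_injective hinj,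
      Subgroup.card_map_of_injective hinj]
    exact h1
  · rw [← Subgroup.map_commutator]
    rintro _ ⟨x, hx, rfl⟩
    exact hCV x (hA.2.1 hx)
  · rintro _ ⟨a, ha, rfl⟩
    rw [← map_pow]
    exact hCV _ (hA.2.2 a ha)

theorem commutator_map_conj {g : G} (hg : g ∈ Subgroup.normalizer (V : Set G)) (A : Subgroup G) :
    ⁅V, A.map (MulAut.conj g).toMonoidHom⁆ = (⁅V, A⁆).map (MulAut.conj g).toMonoidHom := by
  rw [Subgroup.map_commutator, Subnormal.mem_normalizer_iff_map_conj.1 hg]

variable [Finite G] [hp : Fact p.Prime]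

theorem eq_one_of_pow_of_coprime {K : Subgroup G} (hK : (Nat.card K).Coprime p) {k : G}
    (hk : k ∈ K) {n : ℕ} (hn : k ^ p ^ n = 1) : k = 1 := by
  rw [← orderOf_eq_one_iff]
  exact Nat.eq_one_of_dvd_coprimes (hK.pow_right n) (Subgroup.orderOf_dvd_natCard K hk)
    (orderOf_dvd_of_pow_eq_one hn)

theorem inf_eq_bot_of_prime {L F : Subgroup G} (hL : Nat.card L = p) (h : ¬ L ≤ F) :
    L ⊓ F = ⊥ :=
  ((Nat.dvd_prime hp.out).1 (hL ▸ Subgroup.card_dvd_of_le (inf_le_left : L ⊓ F ≤ L))).elim
    (fun h1 => Subgroup.eq_bot_of_card_eq _ h1)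
    fun h1 => absurd (inf_eq_left.1
      (Subgroup.eq_of_le_of_card_ge inf_le_left (hL.trans h1.symm).le)) h

theorem IsRoot.map_conj (h : FFSetting p V H) {A : Subgroup G} (hA : IsRoot p V H A) {g : G}
    (hg : g ∈ H) : IsRoot p V H (A.map (MulAut.conj g).toMonoidHom) where
  le := (Subgroup.map_mono hA.le).trans
    (Subnormal.mem_normalizer_iff_map_conj.1 (Subgroup.le_normalizer hg)).le
  offender := isBestOffenderOn_map_conj (h.le_normalizer hg) hA.offender
  card := (Subgroup.card_map_of_injective (MulAut.conj g).injective).trans hA.card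

theorem map_conj_zpowers (g a : G) :
    (Subgroup.zpowers a).map (MulAut.conj g).toMonoidHom = Subgroup.zpowers (g * a * g⁻¹) := by
  rw [MonoidHom.map_zpowers]
  rfl

theorem FFSetting.conj_mem_core (h : FFSetting p V H) {g x : G} (hg : g ∈ H)
    (hx : x ∈ coreOf p H) : g * x * g⁻¹ ∈ coreOf p H :=
  conj_mem_of_mem_normalizer (h.le_normalizer_core hg) hx

/-- `[V, ⟨a⟩]` -/
abbrev rootLine (V : Subgroup G) (a : G) : Subgroup G := ⁅V, Subgroup.zpowers a⁆

/-- `C_V(a)` -/
abbrev rootWall (V : Subgroup G) (a : G) : Subgroup G :=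
  V ⊓ Subgroup.centralizer (Subgroup.zpowers a : Set G)

/-- Generators of two different roots which agree modulo the core. -/
structure RootPair (p : ℕ) (V H : Subgroup G) (a b : G) : Prop where
  setting : FFSetting p V H
  rootA : IsRoot p V H (Subgroup.zpowers a)
  rootB : IsRoot p V H (Subgroup.zpowers b)
  ne : a ≠ b
  mem : b * a⁻¹ ∈ coreOf p H

theorem IsRoot.gen_ne_one {a : G} (hA : IsRoot p V H (Subgroup.zpowers a)) : a ≠ 1 := by
  rintro rfl
  exact hA.ne_bot Subgroup.zpowers_one_eq_bot

theorem IsRoot.gen_pow {a : G} (hA : IsRoot p V H (Subgroup.zpowers a)) : a ^ p = 1 := by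
  rw [← hA.card, Nat.card_zpowers]
  exact pow_orderOf_eq_one a

theorem IsRoot.line_data (h : FFSetting p V H) {a : G}
    (hA : IsRoot p V H (Subgroup.zpowers a)) :
    Nat.card ↥(rootLine V a) = p ∧ rootLine V a ≤ rootWall V a :=
  let d := hA.commutator_data h (Subgroup.mem_zpowers a) hA.gen_ne_one
  ⟨d.1, d.2.1⟩

namespace RootPair

variable {a b : G}

theorem symm (P : RootPair p V H a b) : RootPair p V H b a :=
  ⟨P.setting, P.rootB, P.rootA, P.ne.symm, by simpa using inv_mem P.mem⟩

theorem mem_left (P : RootPair p V H a b) : a ∈ H := P.rootA.le (Subgroup.mem_zpowers a)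

theorem mem_right (P : RootPair p V H a b) : b ∈ H := P.rootB.le (Subgroup.mem_zpowers b)

theorem normalizes (P : RootPair p V H a b) :
    Subgroup.zpowers a ⊔ Subgroup.zpowers b ≤ Subgroup.normalizer (V : Set G) :=
  (sup_le P.rootA.le P.rootB.le).trans P.setting.le_normalizer

theorem line_sup_le (P : RootPair p V H a b) : rootLine V a ⊔ rootLine V b ≤ V :=
  sup_le (P.setting.commutator_offender_le P.rootA.le) (P.setting.commutator_offender_le P.rootB.le)

theorem left_normalizes_plane (P : RootPair p V H a b) :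
    Subgroup.zpowers a ≤ Subgroup.normalizer ((rootLine V a ⊔ rootLine V b : Subgroup G) : Set G) :=
  Subgroup.le_normalizer_iff_commutator_le_left.2
    ((Subgroup.commutator_mono P.line_sup_le le_rfl).trans le_sup_left)

theorem right_normalizes_plane (P : RootPair p V H a b) :
    Subgroup.zpowers b ≤ Subgroup.normalizer ((rootLine V a ⊔ rootLine V b : Subgroup G) : Set G) :=
  Subgroup.le_normalizer_iff_commutator_le_left.2
    ((Subgroup.commutator_mono P.line_sup_le le_rfl).trans le_sup_right)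

/-- The line of one root is not fixed by the other. -/
theorem not_le (P : RootPair p V H a b) : ¬ rootLine V a ≤ rootWall V b := by
  intro hle
  obtain ⟨-, hLa⟩ := P.rootA.line_data P.setting
  obtain ⟨-, hLb⟩ := P.rootB.line_data P.setting
  set La := rootLine V a
  set Lb := rootLine V b
  set W := La ⊔ Lb with hW
  set E := Subgroup.zpowers a ⊔ Subgroup.zpowers b with hE
  have hEW : E ≤ Subgroup.normalizer (W : Set G) :=
    sup_le P.left_normalizes_plane P.right_normalizes_plane
  have hbW : Subgroup.zpowers b ≤ Subgroup.centralizer (W : Set G) :=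
    Subgroup.le_centralizer_iff.1 (sup_le (hle.trans inf_le_right) (hLb.trans inf_le_right))
  have hEL : E ≤ Subgroup.normalizer (La : Set G) :=
    sup_le (Subgroup.normalizer_commutator_ge_right V _)
      ((hbW.trans (Subgroup.centralizer_le (SetLike.coe_subset_coe.2 le_sup_left))).trans
        (Subgroup.centralizer_le_normalizer _))
  have hLaE : E ≤ Subgroup.centralizer (La : Set G) :=
    sup_le (Subgroup.le_centralizer_iff.1 (hLa.trans inf_le_right))
      (hbW.trans (Subgroup.centralizer_le (SetLike.coe_subset_coe.2 le_sup_left)))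
  have hs1 : E ≤ stabilizerModulo V W E P.line_sup_le hEW P.normalizes :=
    sup_le
      (fun x hx => ⟨Subgroup.mem_sup_left hx, fun v hv =>
        Subgroup.mem_sup_left (Subgroup.commutator_mem_commutator hv hx)⟩)
      (fun x hx => ⟨Subgroup.mem_sup_right hx, fun v hv =>
        Subgroup.mem_sup_right (Subgroup.commutator_mem_commutator hv hx)⟩)
  have hs2 : E ≤ stabilizerModulo W La E le_sup_left hEL hEW := by
    refine sup_le
      (fun x hx => ⟨Subgroup.mem_sup_left hx, fun v hv =>
        Subgroup.commutator_mem_commutator (P.line_sup_le hv) hx⟩)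
      (fun x hx => ⟨Subgroup.mem_sup_right hx, fun v hv => ?_⟩)
    rw [commutatorElement_eq_one_iff_mul_comm.2 (hbW hx v hv)]
    exact one_mem _
  set k := b * a⁻¹ with hk
  have hkE : k ∈ E := mul_mem (Subgroup.mem_sup_right (Subgroup.mem_zpowers b))
    (inv_mem (Subgroup.mem_sup_left (Subgroup.mem_zpowers a)))
  have hkp : k ^ p ∈ E := pow_mem hkE p
  have h1 : k ^ p ∈ Subgroup.centralizer (W : Set G) :=
    pow_mem_centralizer_of_stabilize (isElementaryAbelian_mono P.setting.elem P.line_sup_le)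
      le_sup_left (hLaE hkE) (hs2 hkE).2
  have h2 : (k ^ p) ^ p ∈ Subgroup.centralizer (V : Set G) :=
    pow_mem_centralizer_of_stabilize P.setting.elem P.line_sup_le h1 (hs1 hkp).2
  have h3 : (k ^ p) ^ p = 1 := Subgroup.mem_bot.1 (P.setting.faithful ▸
    ⟨pow_mem (pow_mem (mul_mem P.mem_right (inv_mem P.mem_left)) p) p, h2⟩)
  rw [← pow_mul, ← sq] at h3
  exact P.ne (mul_inv_eq_one.1 (eq_one_of_pow_of_coprime P.setting.core_coprime P.mem h3)).symm

/-- The plane of a pair. -/
abbrev plane (V : Subgroup G) (a b : G) : Subgroup G :=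
  ⁅V, Subgroup.zpowers a ⊔ Subgroup.zpowers b⁆

theorem plane_eq (P : RootPair p V H a b) : plane V a b = rootLine V a ⊔ rootLine V b := by
  refine le_antisymm ?_ (sup_le (Subgroup.commutator_mono le_rfl le_sup_left)
    (Subgroup.commutator_mono le_rfl le_sup_right))
  have hs : Subgroup.zpowers a ⊔ Subgroup.zpowers b ≤ stabilizerModulo V
      (rootLine V a ⊔ rootLine V b) _ P.line_sup_le
      (sup_le P.left_normalizes_plane P.right_normalizes_plane) P.normalizes :=
    sup_le
      (fun x hx => ⟨Subgroup.mem_sup_left hx, fun v hv =>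
        Subgroup.mem_sup_left (Subgroup.commutator_mem_commutator hv hx)⟩)
      (fun x hx => ⟨Subgroup.mem_sup_right hx, fun v hv =>
        Subgroup.mem_sup_right (Subgroup.commutator_mem_commutator hv hx)⟩)
  exact Subgroup.commutator_le.2 fun v hv x hx => (hs hx).2 v hv

theorem le_normalizer_of_le {K L : Subgroup G} (h : FFSetting p V H) (hK : K ≤ V) (hL : L ≤ V) :
    K ≤ Subgroup.normalizer (L : Set G) :=
  (hK.trans ((isElementaryAbelian_le_centralizer h.elem).trans (Subgroup.centralizer_le hL))).trans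
    (Subgroup.centralizer_le_normalizer _)

theorem line_inf_line (P : RootPair p V H a b) : rootLine V a ⊓ rootLine V b = ⊥ :=
  le_bot_iff.1 (inf_eq_bot_of_prime (P.rootA.line_data P.setting).1 P.not_le ▸
    inf_le_inf_left _ (P.rootB.line_data P.setting).2)

theorem card_plane (P : RootPair p V H a b) : Nat.card ↥(plane V a b) = p ^ 2 := by
  have h := card_sup_mul_card_inf (rootLine V a) (rootLine V b)
    (le_normalizer_of_le P.setting (le_sup_left.trans P.line_sup_le)
      (le_sup_right.trans P.line_sup_le))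
  rw [P.line_inf_line, Subgroup.card_bot, mul_one, ← P.plane_eq,
    (P.rootA.line_data P.setting).1, (P.rootB.line_data P.setting).1] at h
  rw [h, sq]

theorem exists_mul_of_mem_plane (P : RootPair p V H a b) {w : G} (hw : w ∈ plane V a b) :
    ∃ x ∈ rootLine V a, ∃ y ∈ rootLine V b, x * y = w := by
  rw [P.plane_eq, ← SetLike.mem_coe, Subgroup.coe_mul_of_left_le_normalizer_right _ _
    (le_normalizer_of_le P.setting (le_sup_left.trans P.line_sup_le)
      (le_sup_right.trans P.line_sup_le))] at hw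
  exact hw

theorem fixed_eq (P : RootPair p V H a b) :
    V ⊓ Subgroup.centralizer ((Subgroup.zpowers a ⊔ Subgroup.zpowers b : Subgroup G) : Set G) =
      rootWall V a ⊓ rootWall V b := by
  rw [centralizer_sup', inf_inf_inf_comm, inf_idem]

theorem plane_inf_fixed (P : RootPair p V H a b) :
    plane V a b ⊓
      (V ⊓ Subgroup.centralizer ((Subgroup.zpowers a ⊔ Subgroup.zpowers b : Subgroup G) : Set G))
        = ⊥ := by
  rw [P.fixed_eq, Subgroup.eq_bot_iff_forall]
  rintro w ⟨hw, hwa, hwb⟩
  obtain ⟨x, hx, y, hy, rfl⟩ := P.exists_mul_of_mem_plane hw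
  have hy1 : y = 1 := Subgroup.mem_bot.1 (inf_eq_bot_of_prime (P.rootB.line_data P.setting).1
    P.symm.not_le ▸ ⟨hy, by
      simpa using mul_mem (inv_mem ((P.rootA.line_data P.setting).2 hx)) hwa⟩)
  rw [hy1, mul_one] at hwb ⊢
  exact Subgroup.mem_bot.1 (inf_eq_bot_of_prime (P.rootA.line_data P.setting).1 P.not_le ▸
    ⟨hx, hwb⟩)

theorem plane_sup_fixed (P : RootPair p V H a b) :
    plane V a b ⊔
      (V ⊓ Subgroup.centralizer ((Subgroup.zpowers a ⊔ Subgroup.zpowers b : Subgroup G) : Set G))
        = V := by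
  set C := V ⊓ Subgroup.centralizer
    ((Subgroup.zpowers a ⊔ Subgroup.zpowers b : Subgroup G) : Set G) with hC
  have hWV : plane V a b ≤ V := P.plane_eq.le.trans P.line_sup_le
  refine Subgroup.eq_of_le_of_card_ge (sup_le hWV inf_le_left) ?_
  have h1 := card_sup_mul_card_inf (plane V a b) C (le_normalizer_of_le P.setting hWV inf_le_left)
  rw [P.plane_inf_fixed, Subgroup.card_bot, mul_one, P.card_plane] at h1
  have h2 := card_sup_mul_card_inf (rootWall V a) (rootWall V b)
    (le_normalizer_of_le P.setting inf_le_left inf_le_left)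
  rw [← P.fixed_eq, ← hC] at h2
  have h4 : Nat.card V * Nat.card V ≤ (p ^ 2 * Nat.card C) * Nat.card V :=
    calc Nat.card V * Nat.card V
        = (p * Nat.card ↥(rootWall V a)) * (p * Nat.card ↥(rootWall V b)) := by
          rw [P.rootA.card_fixed P.setting, P.rootB.card_fixed P.setting]
      _ = (p ^ 2 * Nat.card C) * Nat.card ↥(rootWall V a ⊔ rootWall V b) := by
          rw [mul_mul_mul_comm, ← h2]; ring
      _ ≤ _ := Nat.mul_le_mul_left _ (Subgroup.card_le_of_le (sup_le inf_le_left inf_le_left))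
  rw [h1]
  exact Nat.le_of_mul_le_mul_right h4 Nat.card_pos

theorem inf_centralizer_plane (P : RootPair p V H a b) :
    (Subgroup.zpowers a ⊔ Subgroup.zpowers b) ⊓
      Subgroup.centralizer (plane V a b : Set G) = ⊥ := by
  rw [Subgroup.eq_bot_iff_forall]
  rintro x ⟨hx, hxW⟩
  refine Subgroup.mem_bot.1 (P.setting.faithful ▸ ⟨sup_le P.rootA.le P.rootB.le hx, ?_⟩)
  intro v hv
  have hsub : V ≤ Subgroup.centralizer ({x} : Set G) := by
    conv_lhs => rw [← P.plane_sup_fixed]
    refine sup_le (fun w hw => Subgroup.mem_centralizer_singleton_iff.2 (hxW w hw))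
      (inf_le_right.trans (Subgroup.centralizer_le (Set.singleton_subset_iff.2 hx)))
  exact Subgroup.mem_centralizer_singleton_iff.1 (hsub hv)

theorem mem_line_or_translate (P : RootPair p V H a b) {w : G} (hw : w ∈ plane V a b) :
    w ∈ rootLine V a ∨ ∃ n : ℤ, w ∈ rootLine V (a ^ n * b * (a ^ n)⁻¹) := by
  obtain ⟨x, hx, y, hy, rfl⟩ := P.exists_mul_of_mem_plane hw
  obtain ⟨hLc, hLa⟩ := P.rootA.line_data P.setting
  by_cases hy1 : y = 1
  · exact Or.inl (by rwa [hy1, mul_one])
  right
  have hyV : y ∈ V := P.line_sup_le (Subgroup.mem_sup_right hy)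
  set z := ⁅y, a⁆⁻¹ with hz
  have hzL : z ∈ rootLine V a :=
    inv_mem (Subgroup.commutator_mem_commutator hyV (Subgroup.mem_zpowers a))
  have hz1 : z ≠ 1 := by
    rw [hz, ne_eq, inv_eq_one, commutatorElement_eq_one_iff_commute]
    intro hc
    refine hy1 (Subgroup.mem_bot.1 (inf_eq_bot_of_prime (P.rootB.line_data P.setting).1
      P.symm.not_le ▸ ⟨hy, hyV, ?_⟩))
    rintro _ ⟨n, rfl⟩
    exact (hc.zpow_right n).symm.eq
  have hzp : Subgroup.zpowers z = rootLine V a :=
    Subgroup.eq_of_le_of_card_ge (Subgroup.zpowers_le.2 hzL) (by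
      rw [hLc, Nat.card_zpowers, orderOf_eq_prime
        (P.setting.elem.2 z (P.line_sup_le (Subgroup.mem_sup_left hzL))) hz1])
  obtain ⟨n, rfl⟩ := (hzp.ge hx : x ∈ Subgroup.zpowers z)
  refine ⟨n, ?_⟩
  have hcz : Commute a z := ((hLa hzL).2 a (Subgroup.mem_zpowers a))
  have hconj := conj_zpow_of_fix (conj_eq_inv_commutator_mul y a) hcz n
  rw [rootLine, ← map_conj_zpowers, commutator_map_conj
    (zpow_mem (P.setting.le_normalizer P.mem_left) n)]
  exact ⟨y, hy, hconj⟩

/-- Every root congruent to `a` modulo the core lies in the group of the pair. -/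
theorem mem_of_root (P : RootPair p V H a b) {c : G}
    (hc : IsRoot p V H (Subgroup.zpowers c)) (hca : c * a⁻¹ ∈ coreOf p H) :
    c ∈ Subgroup.zpowers a ⊔ Subgroup.zpowers b := by
  have hWV : plane V a b ≤ V := P.plane_eq.le.trans P.line_sup_le
  obtain ⟨w, hw, hw1⟩ : ∃ w ∈ plane V a b ⊓ rootWall V c, w ≠ 1 := by
    refine (Subgroup.bot_or_exists_ne_one _).resolve_left fun hb => ?_
    have h1 := card_sup_mul_card_inf (plane V a b) (rootWall V c)
      (le_normalizer_of_le P.setting hWV inf_le_left)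
    rw [hb, Subgroup.card_bot, mul_one, P.card_plane] at h1
    have h2 := Subgroup.card_le_of_le (sup_le hWV (inf_le_left : rootWall V c ≤ V))
    rw [h1, ← hc.card_fixed P.setting, sq, mul_assoc] at h2
    have hlt : p * Nat.card ↥(rootWall V c) < p * (p * Nat.card ↥(rootWall V c)) :=
      lt_mul_of_one_lt_left (Nat.mul_pos hp.out.pos Nat.card_pos) hp.out.one_lt
    exact absurd h2 (not_le_of_gt hlt)
  have key : ∀ d : G, IsRoot p V H (Subgroup.zpowers d) → d * a⁻¹ ∈ coreOf p H →
      w ∈ rootLine V d → c = d := by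
    intro d hd hda hwd
    by_contra hne
    have hcd : c * d⁻¹ ∈ coreOf p H := by
      have := mul_mem hca (inv_mem hda)
      simpa [mul_assoc] using this
    have Q : RootPair p V H d c := ⟨P.setting, hd, hc, Ne.symm hne, hcd⟩
    refine hw1 (Subgroup.mem_bot.1 (inf_eq_bot_of_prime (hd.line_data P.setting).1 Q.not_le ▸
      ⟨hwd, hw.2⟩))
  rcases P.mem_line_or_translate hw.1 with hwa | ⟨n, hwd⟩
  · rw [key a P.rootA (by simp) hwa]
    exact Subgroup.mem_sup_left (Subgroup.mem_zpowers a)
  · have hg : a ^ n ∈ H := zpow_mem P.mem_left n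
    have hd : IsRoot p V H (Subgroup.zpowers (a ^ n * b * (a ^ n)⁻¹)) :=
      map_conj_zpowers (a ^ n) b ▸ P.rootB.map_conj P.setting hg
    have hda : a ^ n * b * (a ^ n)⁻¹ * a⁻¹ ∈ coreOf p H := by
      have h1 := P.setting.conj_mem_core hg P.mem
      have e : a ^ n * b * (a ^ n)⁻¹ * a⁻¹ = a ^ n * (b * a⁻¹) * (a ^ n)⁻¹ := by group
      rwa [e]
    rw [key _ hd hda hwd]
    exact mul_mem (mul_mem (Subgroup.mem_sup_left (zpow_mem (Subgroup.mem_zpowers a) n))
      (Subgroup.mem_sup_right (Subgroup.mem_zpowers b)))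
      (inv_mem (Subgroup.mem_sup_left (zpow_mem (Subgroup.mem_zpowers a) n)))

end RootPair

theorem rootPair_conj (h : FFSetting p V H) {a q : G} (hA : IsRoot p V H (Subgroup.zpowers a))
    (hq : q ∈ coreOf p H) (hne : a ≠ q * a * q⁻¹) : RootPair p V H a (q * a * q⁻¹) where
  setting := h
  rootA := hA
  rootB := map_conj_zpowers q a ▸ hA.map_conj h (h.core_le hq)
  ne := hne
  mem := by
    have h1 := h.conj_mem_core (hA.le (Subgroup.mem_zpowers a)) (inv_mem hq)
    have e : q * a * q⁻¹ * a⁻¹ = q * (a * q⁻¹ * a⁻¹) := by group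
    rw [e]
    exact mul_mem hq h1

end CfsgLib.ThompsonJ
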