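import Cfsg.Agent.Lib.ThompsonJ.FF.Pair
import Cfsg.Agent.Lib.ThompsonJ.SL2Coprime
import Cfsg.Agent.Lib.ClassicalLinear.Generation

/-!
The group of a pair of roots is `SL(2, p)` on its plane, and `p` is `2` or `3`
(`CfsgLib.ThompsonJ`).
-/

set_option autoImplicit false
set_option linter.unusedSectionVars false

open Matrix
open scoped commutatorElement MatrixGroups
open CfsgLib.ClassicalLinear (upS upS_coe upS_add)
open CfsgLib.SL2.Dickson (lowS lowS_coe lowS_add lowS_zero)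

namespace CfsgLib.ThompsonJ

open Cfsg

variable {p : ℕ} [hp : Fact p.Prime]

theorem eq_top_of_upS_one_lowS {Y : Subgroup SL(2, ZMod p)} {t : ZMod p} (ht : t ≠ 0)
    (hu : upS (1 : ZMod p) ∈ Y) (hl : lowS t ∈ Y) : Y = ⊤ := by
  refine CfsgLib.SL2.Dickson.eq_top_of_upS_lowS (fun c => ?_) fun c => ?_
  · have h := pow_mem hu c.val
    rwa [upS_nsmul, ZMod.natCast_zmod_val, mul_one] at h
  · have h := pow_mem hl (c / t).val
    rwa [← CfsgLib.SL2.Dickson.lowS_nsmul, ZMod.natCast_zmod_val, div_mul_cancel₀ c ht] at h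

variable {G : Type*} [Group G] [Finite G] {V H : Subgroup G} {a b : G}

namespace RootPair

/-- A basis of the plane adapted to the pair. -/
theorem exists_basis (P : RootPair p V H a b) :
    ∃ (e : (Fin 2 → ZMod p) → G) (t : ZMod p), t ≠ 0 ∧
      (∀ v w, e (v + w) = e v * e w) ∧ Function.Injective e ∧ Set.range e = plane V a b ∧
      a * e ![1, 0] * a⁻¹ = e ![1, 0] ∧ a * e ![0, 1] * a⁻¹ = e ![1, 1] ∧
      b * e ![0, 1] * b⁻¹ = e ![0, 1] ∧ b * e ![1, 0] * b⁻¹ = e ![1, t] := by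
  obtain ⟨hLa, hLaw⟩ := P.rootA.line_data P.setting
  obtain ⟨hLb, hLbw⟩ := P.rootB.line_data P.setting
  have hLaV : rootLine V a ≤ V := le_sup_left.trans P.line_sup_le
  have hLbV : rootLine V b ≤ V := le_sup_right.trans P.line_sup_le
  have hfix : ∀ {c x : G}, x ∈ rootWall V c → c * x * c⁻¹ = x := by
    intro c x hx
    rw [hx.2 c (Subgroup.mem_zpowers c), mul_inv_cancel_right]
  obtain ⟨lb, hlb, hlb1⟩ : ∃ y ∈ rootLine V b, y ≠ 1 :=
    (Subgroup.bot_or_exists_ne_one _).resolve_left fun hb =>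
      hp.out.ne_one (by rw [← hLb, hb, Subgroup.card_bot])
  set la := ⁅lb, a⁆⁻¹ with hla
  have hlaL : la ∈ rootLine V a :=
    inv_mem (Subgroup.commutator_mem_commutator (hLbV hlb) (Subgroup.mem_zpowers a))
  have hla1 : la ≠ 1 := by
    rw [hla, ne_eq, inv_eq_one, commutatorElement_eq_one_iff_commute]
    intro hc
    refine hlb1 (Subgroup.mem_bot.1 (inf_eq_bot_of_prime hLb P.symm.not_le ▸
      ⟨hlb, hLbV hlb, ?_⟩))
    rintro _ ⟨n, rfl⟩
    exact (hc.zpow_right n).symm.eq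
  have horder : ∀ {l : G}, l ∈ V → l ≠ 1 → orderOf l = p := fun hl h1 =>
    orderOf_eq_prime (P.setting.elem.2 _ hl) h1
  have hz : ∀ {l : G} {L : Subgroup G}, Nat.card L = p → L ≤ V → l ∈ L → l ≠ 1 →
      ∀ x ∈ L, ∃ i : ZMod p, l ^ i.val = x := by
    intro l L hL hLV hl h1 x hx
    have heq : Subgroup.zpowers l = L := Subgroup.eq_of_le_of_card_ge (Subgroup.zpowers_le.2 hl)
      (by rw [hL, Nat.card_zpowers, horder (hLV hl) h1])
    obtain ⟨n, rfl⟩ := (heq.ge hx : x ∈ Subgroup.zpowers l)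
    refine ⟨(n : ZMod p), ?_⟩
    rw [← zpow_natCast, ZMod.val_intCast, ← horder (hLV hl) h1, zpow_mod_orderOf]
  have hadd : ∀ {l : G}, l ∈ V → ∀ i j : ZMod p, l ^ (i + j).val = l ^ i.val * l ^ j.val := by
    intro l hl i j
    rw [ZMod.val_add, ← pow_add]
    exact (pow_eq_pow_mod _ (P.setting.elem.2 l hl)).symm
  set e : (Fin 2 → ZMod p) → G := fun v => la ^ (v 0).val * lb ^ (v 1).val with he
  have hmem0 : ∀ i : ZMod p, la ^ i.val ∈ rootLine V a := fun i => pow_mem hlaL _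
  have hmem1 : ∀ i : ZMod p, lb ^ i.val ∈ rootLine V b := fun i => pow_mem hlb _
  have heA : ∀ v w, e (v + w) = e v * e w := by
    intro v w
    simp only [he, Pi.add_apply, hadd (hLaV hlaL), hadd (hLbV hlb)]
    exact Commute.mul_mul_mul_comm
      (isElementaryAbelian_comm P.setting.elem (hLaV (hmem0 _)) (hLbV (hmem1 _))) _ _
  have h1 : (1 : ZMod p).val = 1 := ZMod.val_one p
  have he10 : e ![1, 0] = la := by simp [he, h1]
  have he01 : e ![0, 1] = lb := by simp [he, h1]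
  obtain ⟨t, ht⟩ := hz hLb hLbV hlb hlb1 ⁅la, b⁆⁻¹
    (inv_mem (Subgroup.commutator_mem_commutator (hLaV hlaL) (Subgroup.mem_zpowers b)))
  refine ⟨e, t, ?_, heA, ?_, ?_, ?_, ?_, ?_, ?_⟩
  · rintro rfl
    rw [ZMod.val_zero, pow_zero, eq_comm, inv_eq_one, commutatorElement_eq_one_iff_commute] at ht
    refine hla1 (Subgroup.mem_bot.1 (inf_eq_bot_of_prime hLa P.not_le ▸ ⟨hlaL, hLaV hlaL, ?_⟩))
    rintro _ ⟨n, rfl⟩
    exact (ht.zpow_right n).symm.eq
  · intro v w hvw
    have hv : ∀ u : Fin 2 → ZMod p, e u = 1 → u = 0 := by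
      intro u hu
      have hu' : la ^ (u 0).val * lb ^ (u 1).val = 1 := hu
      have hxb : la ^ (u 0).val ∈ rootLine V b := by
        rw [eq_inv_of_mul_eq_one_left hu']
        exact inv_mem (hmem1 _)
      have hx : la ^ (u 0).val = 1 :=
        Subgroup.mem_bot.1 (P.line_inf_line ▸ ⟨hmem0 _, hxb⟩)
      have hy : lb ^ (u 1).val = 1 := by
        simp only [he, hx, one_mul] at hu
        exact hu
      rw [← orderOf_dvd_iff_pow_eq_one, horder (hLaV hlaL) hla1] at hx
      rw [← orderOf_dvd_iff_pow_eq_one, horder (hLbV hlb) hlb1] at hy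
      have hz0 : ∀ i : ZMod p, p ∣ i.val → i = 0 := fun i hi =>
        (ZMod.val_eq_zero i).1 (Nat.eq_zero_of_dvd_of_lt hi (ZMod.val_lt i))
      funext i
      fin_cases i
      · exact hz0 _ hx
      · exact hz0 _ hy
    have h2 := heA (v - w) w
    rw [sub_add_cancel, hvw, eq_comm, mul_eq_right] at h2
    exact sub_eq_zero.1 (hv _ h2)
  · refine Set.Subset.antisymm ?_ fun x hx => ?_
    · rintro _ ⟨v, rfl⟩
      rw [P.plane_eq]
      exact mul_mem (Subgroup.mem_sup_left (hmem0 _)) (Subgroup.mem_sup_right (hmem1 _))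
    · obtain ⟨x, hxa, y, hyb, rfl⟩ := P.exists_mul_of_mem_plane hx
      obtain ⟨i, rfl⟩ := hz hLa hLaV hlaL hla1 x hxa
      obtain ⟨j, rfl⟩ := hz hLb hLbV hlb hlb1 y hyb
      exact ⟨![i, j], by simp [he]⟩
  · rw [he10]
    exact hfix (hLaw hlaL)
  · rw [show (![1, 1] : Fin 2 → ZMod p) = ![1, 0] + ![0, 1] by simp, heA, he10, he01,
      conj_eq_inv_commutator_mul, hla]
  · rw [he01]
    exact hfix (hLbw hlb)
  · rw [he10, conj_eq_inv_commutator_mul, ← ht]
    simp only [he, Matrix.cons_val_zero, Matrix.cons_val_one, h1, pow_one]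
    exact isElementaryAbelian_comm P.setting.elem (hLbV (hmem1 _)) (hLaV hlaL)

/-- The group of a pair is `SL(2, p)` acting on its plane. -/
theorem exists_hom (P : RootPair p V H a b) :
    ∃ ρ : ↥(Subgroup.zpowers a ⊔ Subgroup.zpowers b) →* SL(2, ZMod p),
      Function.Bijective ρ ∧
        ρ ⟨a, Subgroup.mem_sup_left (Subgroup.mem_zpowers a)⟩ = upS 1 := by
  obtain ⟨e, t, ht, heA, heI, heR, ha10, ha01, hb01, hb10⟩ := P.exists_basis
  have he0 : e 0 = 1 := by
    have := heA 0 0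
    rw [add_zero, eq_comm, mul_eq_left] at this
    exact this
  set X := Subgroup.zpowers a ⊔ Subgroup.zpowers b with hX
  have hn : X ≤ Subgroup.normalizer (plane V a b : Set G) :=
    Subgroup.normalizer_commutator_ge_right V X
  have hex : ∀ (x : X) (v : Fin 2 → ZMod p), ∃ w, e w = (x : G) * e v * (x : G)⁻¹ := fun x v =>
    (Set.ext_iff.1 heR _).2 (conj_mem_of_mem_normalizer (hn x.2) ((Set.ext_iff.1 heR _).1 ⟨v, rfl⟩))
  choose act hact using hex
  have hact_add : ∀ x v w, act x (v + w) = act x v + act x w := by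
    intro x v w
    refine heI ?_
    rw [hact, heA, heA, hact, hact]
    group
  let lin : X → ((Fin 2 → ZMod p) →ₗ[ZMod p] (Fin 2 → ZMod p)) := fun x =>
    (AddMonoidHom.mk' (act x) (hact_add x)).toZModLinearMap p
  have hlin : ∀ x v, lin x v = act x v := fun _ _ => rfl
  let M : X →* Matrix (Fin 2) (Fin 2) (ZMod p) := {
    toFun := fun x => LinearMap.toMatrix' (lin x)
    map_one' := by
      rw [show lin 1 = LinearMap.id from LinearMap.ext fun v => heI (by
        rw [hlin, hact, LinearMap.id_apply]; simp)]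
      exact LinearMap.toMatrix'_id
    map_mul' := fun x y => by
      rw [show lin (x * y) = (lin x).comp (lin y) from LinearMap.ext fun v => heI (by
        rw [hlin, hact, LinearMap.comp_apply, hlin, hact, hlin, hact, Subgroup.coe_mul]
        group)]
      exact LinearMap.toMatrix'_comp _ _ }
  have hMe : ∀ (x : X) (i j : Fin 2), M x i j = act x (Pi.single j 1) i := fun x i j => by
    show LinearMap.toMatrix' (lin x) i j = _
    rw [LinearMap.toMatrix'_apply, hlin]
  have hs0 : (Pi.single 0 1 : Fin 2 → ZMod p) = ![1, 0] := by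
    ext i; fin_cases i <;> simp
  have hs1 : (Pi.single 1 1 : Fin 2 → ZMod p) = ![0, 1] := by
    ext i; fin_cases i <;> simp
  have haX : a ∈ X := Subgroup.mem_sup_left (Subgroup.mem_zpowers a)
  have hbX : b ∈ X := Subgroup.mem_sup_right (Subgroup.mem_zpowers b)
  have hMa : M ⟨a, haX⟩ = !![1, 1; 0, 1] := by
    have e0 : act ⟨a, haX⟩ ![1, 0] = ![1, 0] := heI (by rw [hact]; exact ha10)
    have e1 : act ⟨a, haX⟩ ![0, 1] = ![1, 1] := heI (by rw [hact]; exact ha01)
    ext i j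
    rw [hMe]
    fin_cases i <;> fin_cases j <;> simp [hs0, hs1, e0, e1]
  have hMb : M ⟨b, hbX⟩ = !![1, 0; t, 1] := by
    have e0 : act ⟨b, hbX⟩ ![1, 0] = ![1, t] := heI (by rw [hact]; exact hb10)
    have e1 : act ⟨b, hbX⟩ ![0, 1] = ![0, 1] := heI (by rw [hact]; exact hb01)
    ext i j
    rw [hMe]
    fin_cases i <;> fin_cases j <;> simp [hs0, hs1, e0, e1]
  let D : Subgroup G :=
    { carrier := {g | ∃ hg : g ∈ X, (M ⟨g, hg⟩).det = 1}
      one_mem' := ⟨one_mem X, by rw [show (⟨1, one_mem X⟩ : X) = 1 from rfl, map_one, det_one]⟩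
      mul_mem' := by
        rintro g g' ⟨hg, h1⟩ ⟨hg', h2⟩
        refine ⟨X.mul_mem hg hg', ?_⟩
        rw [show (⟨g * g', X.mul_mem hg hg'⟩ : X) = ⟨g, hg⟩ * ⟨g', hg'⟩ from rfl, map_mul,
          det_mul, h1, h2, one_mul]
      inv_mem' := by
        rintro g ⟨hg, h1⟩
        refine ⟨X.inv_mem hg, ?_⟩
        have h2 := congrArg Matrix.det (map_mul M (⟨g, hg⟩ : X)⁻¹ ⟨g, hg⟩)
        rwa [inv_mul_cancel, map_one, det_one, det_mul, h1, mul_one, eq_comm] at h2 }
  have hD : X ≤ D := sup_le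
    (Subgroup.zpowers_le.2 ⟨haX, by rw [hMa]; simp [det_fin_two_of]⟩)
    (Subgroup.zpowers_le.2 ⟨hbX, by rw [hMb]; simp [det_fin_two_of]⟩)
  let ρ : X →* SL(2, ZMod p) := {
    toFun := fun x => ⟨M x, by obtain ⟨_, h⟩ := hD x.2; exact h⟩
    map_one' := Subtype.ext (map_one M)
    map_mul' := fun x y => Subtype.ext (map_mul M x y) }
  refine ⟨ρ, ⟨?_, ?_⟩, Subtype.ext (hMa.trans (upS_coe _).symm)⟩
  · rw [injective_iff_map_eq_one]
    intro x hx
    refine Subtype.ext (Subgroup.mem_bot.1 (P.inf_centralizer_plane ▸ ⟨x.2, ?_⟩))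
    intro w hw
    obtain ⟨v, rfl⟩ := (Set.ext_iff.1 heR _).2 hw
    have h1 : lin x = LinearMap.id :=
      LinearMap.toMatrix'.injective ((congrArg Subtype.val hx).trans LinearMap.toMatrix'_id.symm)
    have h2 : (x : G) * e v * (x : G)⁻¹ = e v := by
      rw [← hact, ← hlin, h1, LinearMap.id_apply]
    exact (mul_inv_eq_iff_eq_mul.1 h2).symm
  · rw [← MonoidHom.range_eq_top]
    exact eq_top_of_upS_one_lowS ht ⟨⟨a, haX⟩, Subtype.ext (hMa.trans (upS_coe _).symm)⟩
      ⟨⟨b, hbX⟩, Subtype.ext (hMb.trans (lowS_coe _).symm)⟩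

theorem nonempty_mulEquiv (P : RootPair p V H a b) :
    Nonempty (↥(Subgroup.zpowers a ⊔ Subgroup.zpowers b) ≃* SL(2, ZMod p)) :=
  let ⟨ρ, hρ, _⟩ := P.exists_hom
  ⟨MulEquiv.ofBijective ρ hρ⟩

/-- The prime of a pair is `2` or `3`. -/
theorem prime_two_or_three (P : RootPair p V H a b) : p = 2 ∨ p = 3 := by
  by_cases h2 : p = 2
  · exact Or.inl h2
  right
  obtain ⟨ρ, hρ, hρa⟩ := P.exists_hom
  revert ρ
  set X := Subgroup.zpowers a ⊔ Subgroup.zpowers b with hX
  intro ρ hρ hρa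
  have haX : a ∈ X := Subgroup.mem_sup_left (Subgroup.mem_zpowers a)
  have hbX : b ∈ X := Subgroup.mem_sup_right (Subgroup.mem_zpowers b)
  set R := ((coreOf p H).subgroupOf X).map ρ with hR
  have hcard : (Nat.card R).Coprime p := by
    refine P.setting.core_coprime.coprime_dvd_left ?_
    rw [hR, Subgroup.card_map_of_injective hρ.1,
      ← Subgroup.card_map_of_injective X.subtype_injective, Subgroup.subgroupOf_map_subtype]
    exact Subgroup.card_dvd_of_le inf_le_left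
  have hRn : upS (1 : ZMod p) ∈ Subgroup.normalizer (R : Set SL(2, ZMod p)) := by
    rw [← hρa]
    refine CoprimeAction.mem_normalizer_of_conj_mem ?_
    rintro _ ⟨x, hx, rfl⟩
    refine ⟨⟨a, haX⟩ * x * ⟨a, haX⟩⁻¹, ?_, by rw [map_mul, map_mul, map_inv]⟩
    exact P.setting.conj_mem_core P.mem_left hx
  have hne : ∃ r ∈ R, upS (1 : ZMod p) * r ≠ r * upS 1 := by
    set k : X := ⟨b, hbX⟩ * ⟨a, haX⟩⁻¹ with hk
    refine ⟨ρ k, Subgroup.mem_map_of_mem ρ P.mem, fun hc => ?_⟩
    rw [← hρa, ← map_mul, ← map_mul] at hc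
    have h1 : Commute a (b * a⁻¹) := congrArg Subtype.val (hρ.1 hc)
    have hb : Commute a b := by
      have := h1.mul_right (Commute.refl a)
      rwa [inv_mul_cancel_right] at this
    have h3 : (b * a⁻¹) ^ p ^ 1 = 1 := by
      rw [pow_one, hb.symm.inv_right.mul_pow, inv_pow, P.rootA.gen_pow, P.rootB.gen_pow,
        inv_one, one_mul]
    exact P.ne (mul_inv_eq_one.1
      (eq_one_of_pow_of_coprime P.setting.core_coprime P.mem h3)).symm
  refine (exists_sl2_three (F := ZMod p) h2 (X := ⊤) (Subgroup.mem_top _) ?_ le_top hcard hRn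
    hne).1
  rw [upS_coe, sq]
  ext i j
  fin_cases i <;> fin_cases j <;> simp [Matrix.mul_apply, Fin.sum_univ_two]

end RootPair

end CfsgLib.ThompsonJ
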