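import Cfsg.Agent.Lib.ThompsonJ.FF.FactorModule

/-!
The structure theorem for failure of factorization: two root factors are equal or commute and act
on independent planes (`CfsgLib.ThompsonJ`).
-/

set_option autoImplicit false
set_option linter.unusedSectionVars false

open scoped commutatorElement

namespace CfsgLib.ThompsonJ

open Cfsg

variable {G : Type*} [Group G] [Finite G] {p : ℕ} [hp : Fact p.Prime] {V H : Subgroup G} {a a' : G}

theorem exists_generating_root_mem (h : FFSetting p V H) (hA : IsRoot p V H (Subgroup.zpowers a))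
    {w : G} (hw : w ∈ factorPlane p V H a) :
    ∃ d : G, IsRoot p V H (Subgroup.zpowers d) ∧ d ∈ rootFactor p H a ∧ w ∈ rootLine V d := by
  obtain ⟨q, hq, P⟩ := hA.exists_pair h
  rw [factorPlane, hA.factor_eq h hq P] at hw
  rw [hA.factor_eq h hq P]
  rcases P.mem_line_or_translate hw with hh | ⟨n, hh⟩
  · exact ⟨a, hA, Subgroup.mem_sup_left (Subgroup.mem_zpowers a), hh⟩
  · exact ⟨_, map_conj_zpowers (a ^ n) _ ▸ P.rootB.map_conj h (zpow_mem P.mem_left n),
      mul_mem (mul_mem (Subgroup.mem_sup_left (zpow_mem (Subgroup.mem_zpowers a) n))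
        (Subgroup.mem_sup_right (Subgroup.mem_zpowers _)))
        (inv_mem (Subgroup.mem_sup_left (zpow_mem (Subgroup.mem_zpowers a) n))), hh⟩

/-- The commutators `[U, [Q, A']]` of a `Q`-invariant subgroup `U` lie in `U ∩ [V, E']`. -/
theorem commutator_comm_le (h : FFSetting p V H) {U : Subgroup G} (hU : U ≤ V)
    (hQU : coreOf p H ≤ Subgroup.normalizer (U : Set G))
    (hA : IsRoot p V H (Subgroup.zpowers a)) :
    ⁅U, rootComm p H a⁆ ≤ U ⊓ factorPlane p V H a :=
  le_inf (Subgroup.le_normalizer_iff_commutator_le_left.1 ((hA.comm_le_core h).trans hQU))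
    (Subgroup.commutator_mono hU le_sup_left)

theorem fixed_le_of_plane_eq (h : FFSetting p V H) (hA : IsRoot p V H (Subgroup.zpowers a))
    (hA' : IsRoot p V H (Subgroup.zpowers a'))
    (heq : factorPlane p V H a = factorPlane p V H a') :
    factorFixed p V H a ≤ factorFixed p V H a' := by
  rw [hA'.fixed_eq_comm h]
  refine le_inf inf_le_left (Subgroup.commutator_eq_bot_iff_le_centralizer.1 (le_bot_iff.1 ?_))
  rw [← (hA.module_data h).2.1, inf_comm]
  conv_rhs => rw [heq]
  exact commutator_comm_le h inf_le_left (hA.core_normalizes_fixed h) hA'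

theorem factor_eq_of_plane_eq (h : FFSetting p V H) (hA : IsRoot p V H (Subgroup.zpowers a))
    (hA' : IsRoot p V H (Subgroup.zpowers a'))
    (heq : factorPlane p V H a = factorPlane p V H a') :
    rootFactor p H a = rootFactor p H a' := by
  have hC : factorFixed p V H a = factorFixed p V H a' :=
    le_antisymm (fixed_le_of_plane_eq h hA hA' heq) (fixed_le_of_plane_eq h hA' hA heq.symm)
  obtain ⟨hWc, hWC, hWV, -⟩ := hA.module_data h
  obtain ⟨hL'c, hL'F⟩ := hA'.line_data h
  have hL'W : rootLine V a' ≤ factorPlane p V H a :=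
    (Subgroup.commutator_mono le_rfl le_sup_right).trans heq.ge
  obtain ⟨l, hl, hl1⟩ := (Subgroup.bot_or_exists_ne_one (rootLine V a')).resolve_left
    fun hb => hp.out.ne_one (by rw [← hL'c, hb, Subgroup.card_bot])
  obtain ⟨d, hd, hdE, hld⟩ := exists_generating_root_mem h hA (hL'W hl)
  obtain ⟨hLdc, hLdF⟩ := hd.line_data h
  have hLL : rootLine V a' = rootLine V d := by
    refine Subgroup.eq_of_le_of_card_ge ?_ (hLdc.trans hL'c.symm).le
    by_contra hn
    exact hl1 (Subgroup.mem_bot.1 (inf_eq_bot_of_prime hL'c hn ▸ ⟨hl, hld⟩))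
  set C := factorFixed p V H a with hCdef
  set L := rootLine V d with hL
  have hLW : L ≤ factorPlane p V H a := hLL ▸ hL'W
  -- both walls are `L C`
  have hF : ∀ x : G, IsRoot p V H (Subgroup.zpowers x) → rootLine V x = L →
      C ≤ Subgroup.centralizer ({x} : Set G) → rootWall V x = L ⊔ C := by
    intro x hx hxL hxC
    have hle : L ⊔ C ≤ rootWall V x := sup_le (hxL ▸ (hx.line_data h).2)
      (le_inf inf_le_left (by rwa [Subgroup.zpowers_eq_closure, Subgroup.centralizer_closure]))
    refine (Subgroup.eq_of_le_of_card_ge hle ?_).symm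
    have h1 := card_sup_mul_card_inf L C (RootPair.le_normalizer_of_le h
      (hLW.trans (hA.plane_le h)) inf_le_left)
    have h3 : L ⊓ C = ⊥ := le_bot_iff.1 (hWC ▸ inf_le_inf_right _ hLW)
    rw [h3, Subgroup.card_bot, mul_one, hLdc] at h1
    have h4 := card_sup_mul_card_inf (factorPlane p V H a) C (RootPair.le_normalizer_of_le h
      (hA.plane_le h) inf_le_left)
    rw [hWV, hWC, Subgroup.card_bot, mul_one, hWc, ← hx.card_fixed h, sq, mul_assoc, ← h1] at h4
    exact (Nat.eq_of_mul_eq_mul_left hp.out.pos h4).le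
  have hFd : rootWall V d = L ⊔ C := hF d hd rfl
    (inf_le_right.trans (Subgroup.centralizer_le (Set.singleton_subset_iff.2 hdE)))
  have hFa : rootWall V a' = L ⊔ C := hF a' hA' hLL (hC.le.trans (inf_le_right.trans
    (Subgroup.centralizer_le (Set.singleton_subset_iff.2
      (Subgroup.mem_sup_right (Subgroup.mem_zpowers a'))))))
  -- a vector outside the wall
  obtain ⟨v₀, hv₀, hv₀F⟩ : ∃ v ∈ V, v ∉ rootWall V d := by
    refine SetLike.not_le_iff_exists.1 fun hle => ?_
    have h1 := hd.card_fixed h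
    rw [show V ⊓ Subgroup.centralizer (Subgroup.zpowers d : Set G) = V from
      le_antisymm inf_le_left hle] at h1
    have := hp.out.two_le
    have := Nat.card_pos (α := V)
    nlinarith
  have hzd : ∀ {x : G}, x ∈ H → IsRoot p V H (Subgroup.zpowers x) →
      ⁅v₀, x⁆⁻¹ ∈ rootLine V x := fun _ _ =>
    inv_mem (Subgroup.commutator_mem_commutator hv₀ (Subgroup.mem_zpowers _))
  set z := ⁅v₀, d⁆⁻¹ with hz
  have hdH : d ∈ H := hd.le (Subgroup.mem_zpowers d)
  have ha'H : a' ∈ H := hA'.le (Subgroup.mem_zpowers a')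
  have hzL : z ∈ L := hzd hdH hd
  have hz1 : z ≠ 1 := by
    rw [hz, ne_eq, inv_eq_one, commutatorElement_eq_one_iff_commute]
    intro hc
    refine hv₀F ⟨hv₀, ?_⟩
    rintro _ ⟨n, rfl⟩
    exact (hc.zpow_right n).symm.eq
  have hzp : Subgroup.zpowers z = L :=
    Subgroup.eq_of_le_of_card_ge (Subgroup.zpowers_le.2 hzL) (by
      rw [hLdc, Nat.card_zpowers, orderOf_eq_prime
        (h.elem.2 z (hA.plane_le h (hLW hzL))) hz1])
  obtain ⟨i, hi⟩ : ⁅v₀, a'⁆⁻¹ ∈ Subgroup.zpowers z := hzp.ge (hLL.le (hzd ha'H hA'))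
  have hcz : Commute d z := (hLdF hzL).2 d (Subgroup.mem_zpowers d)
  have hdi : d ^ i * v₀ * (d ^ i)⁻¹ = a' * v₀ * a'⁻¹ := by
    rw [conj_zpow_of_fix (conj_eq_inv_commutator_mul v₀ d) hcz i, conj_eq_inv_commutator_mul v₀ a']
    exact congrArg (· * v₀) hi
  have hg : (d ^ i)⁻¹ * a' = 1 := by
    refine h.eq_one_of_fix (A := rootWall V d) (B := Subgroup.zpowers v₀)
      (mul_mem (inv_mem (zpow_mem hdH i)) ha'H) ?_ ?_ ?_
    · refine (Subgroup.eq_of_le_of_card_ge (sup_le inf_le_left (Subgroup.zpowers_le.2 hv₀)) ?_).ge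
      have h1 := hd.card_fixed h
      obtain ⟨k, hk⟩ := Subgroup.card_dvd_of_le
        (le_sup_left : rootWall V d ≤ rootWall V d ⊔ Subgroup.zpowers v₀)
      have h2 := Subgroup.card_dvd_of_le
        (sup_le (inf_le_left : rootWall V d ≤ V) (Subgroup.zpowers_le.2 hv₀))
      rw [hk, ← h1, mul_comm p] at h2
      rcases (Nat.dvd_prime hp.out).1 (Nat.dvd_of_mul_dvd_mul_left Nat.card_pos h2) with rfl | rfl
      · refine absurd ?_ hv₀F
        rw [Subgroup.eq_of_le_of_card_ge le_sup_left (hk.trans (mul_one _)).le]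
        exact Subgroup.mem_sup_right (Subgroup.mem_zpowers v₀)
      · rw [← h1, hk, mul_comm]
    · intro x hx
      have e1 : d * x = x * d := hx.2 d (Subgroup.mem_zpowers d)
      have e2 : a' * x = x * a' := (show x ∈ rootWall V a' by rw [hFa, ← hFd]; exact hx).2 a'
        (Subgroup.mem_zpowers a')
      have : Commute ((d ^ i)⁻¹ * a') x :=
        ((show Commute d x from e1).zpow_left i).inv_left.mul_left e2
      rw [this.eq, mul_inv_cancel_right]
    · rintro _ ⟨n, rfl⟩
      have h1 : Commute ((d ^ i)⁻¹ * a') v₀ := by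
        refine mul_inv_eq_iff_eq_mul.1 ?_
        calc (d ^ i)⁻¹ * a' * v₀ * ((d ^ i)⁻¹ * a')⁻¹
            = (d ^ i)⁻¹ * (a' * v₀ * a'⁻¹) * d ^ i := by group
          _ = v₀ := by rw [← hdi]; group
      rw [(h1.zpow_right n).eq, mul_inv_cancel_right]
  have ha'E : a' ∈ rootFactor p H a := by
    rw [← inv_mul_eq_one.1 hg]
    exact zpow_mem hdE i
  refine (Subgroup.eq_of_le_of_card_ge (sup_le (Subgroup.commutator_le.2 fun q hq x hx => ?_)
    (Subgroup.zpowers_le.2 ha'E)) ((hA.card_factor h).trans (hA'.card_factor h).symm).le).symm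
  rw [commutatorElement_def]
  exact mul_mem (conj_mem_of_mem_normalizer (hA.core_normalizes_factor h hq)
    (Subgroup.zpowers_le.2 ha'E hx)) (inv_mem (Subgroup.zpowers_le.2 ha'E hx))

/-- Two root factors are equal or independent. -/
theorem factor_eq_or_independent (h : FFSetting p V H) (hA : IsRoot p V H (Subgroup.zpowers a))
    (hA' : IsRoot p V H (Subgroup.zpowers a')) :
    rootFactor p H a = rootFactor p H a' ∨
      (rootFactor p H a' ≤ Subgroup.centralizer (rootFactor p H a : Set G) ∧
        rootFactor p H a' ≤ Subgroup.centralizer (factorPlane p V H a : Set G) ∧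
        factorPlane p V H a' ≤ factorFixed p V H a) := by
  have hn : rootComm p H a' ≤ Subgroup.normalizer
      ((factorPlane p V H a ⊓ factorPlane p V H a' : Subgroup G) : Set G) := by
    intro x hx
    have h1 := Subnormal.mem_normalizer_iff_map_conj.1
      (hA.core_normalizes_plane h (hA'.comm_le_core h hx))
    have h2 := Subnormal.mem_normalizer_iff_map_conj.1
      (hA'.core_normalizes_plane h (hA'.comm_le_core h hx))
    rw [Subnormal.mem_normalizer_iff_map_conj,
      Subgroup.map_inf_eq _ _ _ (MulAut.conj x).injective, h1, h2]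
  rcases hA'.eq_bot_or_eq_plane h inf_le_right hn with hb | hb
  · right
    have key : ∀ {x y : G}, IsRoot p V H (Subgroup.zpowers x) →
        IsRoot p V H (Subgroup.zpowers y) → factorPlane p V H x ⊓ factorPlane p V H y = ⊥ →
        factorPlane p V H x ≤ factorFixed p V H y := by
      intro x y hx hy hxy
      rw [hy.fixed_eq_comm h]
      refine le_inf (hx.plane_le h) (Subgroup.commutator_eq_bot_iff_le_centralizer.1
        (le_bot_iff.1 ?_))
      rw [← hxy]
      exact commutator_comm_le h (hx.plane_le h) (hx.core_normalizes_plane h) hy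
    have hW'C : factorPlane p V H a' ≤ factorFixed p V H a := key hA' hA (by rw [inf_comm]; exact hb)
    have hWC' : factorPlane p V H a ≤ factorFixed p V H a' := key hA hA' hb
    refine ⟨fun e' he' e he => ?_, Subgroup.le_centralizer_iff.1 (hWC'.trans inf_le_right), hW'C⟩
    have heH : e ∈ H := hA.factor_le h he
    have he'H : e' ∈ H := hA'.factor_le h he'
    have heW : ∀ w ∈ factorPlane p V H a, e⁻¹ * w * e ∈ factorPlane p V H a := fun w hw => by
      simpa using conj_mem_of_mem_normalizer
        (inv_mem (Subgroup.normalizer_commutator_ge_right V (rootFactor p H a) he)) hw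
    have he'W : ∀ w ∈ factorPlane p V H a, e' * w * e'⁻¹ = w := fun w hw => by
      rw [(hWC' hw).2 e' he', mul_inv_cancel_right]
    have heC : ∀ c ∈ factorFixed p V H a, e * c * e⁻¹ = c := fun c hc => by
      rw [hc.2 e he, mul_inv_cancel_right]
    have he'C : ∀ c ∈ factorFixed p V H a, e'⁻¹ * c * e' ∈ factorFixed p V H a := fun c hc => by
      have h1 := conj_eq_inv_commutator_mul c e'⁻¹
      rw [inv_inv] at h1
      rw [h1]
      exact mul_mem (inv_mem (hW'C (Subgroup.commutator_mem_commutator hc.1 (inv_mem he')))) hc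
    have hcomm : ⁅e, e'⁆ = 1 := by
      refine h.eq_one_of_fix (A := factorPlane p V H a) (B := factorFixed p V H a)
        (mul_mem (mul_mem (mul_mem heH he'H) (inv_mem heH)) (inv_mem he'H))
        (hA.module_data h).2.2.1.ge (fun w hw => ?_) (fun c hc => ?_)
      · have e1 : e'⁻¹ * w * e' = w := by
          conv_lhs => rw [← he'W w hw]
          group
        calc ⁅e, e'⁆ * w * ⁅e, e'⁆⁻¹
            = e * (e' * (e⁻¹ * (e'⁻¹ * w * e') * e) * e'⁻¹) * e⁻¹ := by
              rw [commutatorElement_def]; group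
          _ = w := by rw [e1, he'W _ (heW w hw)]; group
      · have e1 : e⁻¹ * (e'⁻¹ * c * e') * e = e'⁻¹ * c * e' := by
          conv_lhs => rw [← heC _ (he'C c hc)]
          group
        calc ⁅e, e'⁆ * c * ⁅e, e'⁆⁻¹
            = e * (e' * (e⁻¹ * (e'⁻¹ * c * e') * e) * e'⁻¹) * e⁻¹ := by
              rw [commutatorElement_def]; group
          _ = e * (e' * (e'⁻¹ * c * e') * e'⁻¹) * e⁻¹ := by rw [e1]
          _ = c := by
              rw [show e' * (e'⁻¹ * c * e') * e'⁻¹ = c by group]
              exact heC c hc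
    exact commutatorElement_eq_one_iff_mul_comm.1 hcomm
  · left
    refine factor_eq_of_plane_eq h hA hA' (Subgroup.eq_of_le_of_card_ge (inf_eq_right.1 hb) ?_).symm
    rw [(hA.module_data h).1, (hA'.module_data h).1]

end CfsgLib.ThompsonJ
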